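import Mathlib
import Cfsg.Prelude.Def_LieRecognition

set_option autoImplicit false

namespace Cfsg.Agent.Lib.Helper24

open scoped Pointwise

variable {M : Type*} [Group M]

theorem pow_card_sub {X : Subgroup M} {x : M} (hx : x ∈ X) : x ^ Nat.card X = 1 :=
  orderOf_dvd_iff_pow_eq_one.mp (Subgroup.orderOf_dvd_natCard X hx)

/-- Unique square roots in a subgroup of odd order, given by a uniform power. -/
theorem odd_sqrt {X : Subgroup M} (hodd : Odd (Nat.card X)) :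
    ∃ k : ℕ, ∀ x ∈ X, (x ^ k) * (x ^ k) = x ∧ ∀ z ∈ X, z * z = x → z = x ^ k := by
  obtain ⟨k, hk⟩ := hodd
  refine ⟨k + 1, fun x hx => ⟨?_, ?_⟩⟩
  · have : x ^ (k + 1) * x ^ (k + 1) = x ^ (Nat.card X) * x := by
      rw [hk, ← pow_add, ← pow_succ]; congr 1; omega
    rw [this, pow_card_sub hx, one_mul]
  · intro z hz hzx
    have : x ^ (k + 1) = z ^ (Nat.card X) * z := by
      rw [← hzx, ← pow_two, ← pow_mul, hk, ← pow_succ]; rfl
    rw [this, pow_card_sub hz, one_mul]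

theorem inverted_pow {X : Subgroup M} {t x : M} (hx : x ∈ Cfsg.invertedBy X t) (k : ℕ) :
    x ^ k ∈ Cfsg.invertedBy X t := by
  refine ⟨pow_mem hx.1 k, ?_⟩
  rw [← conj_pow, hx.2, inv_pow]

theorem inverted_inv {X : Subgroup M} {t x : M} (hx : x ∈ Cfsg.invertedBy X t) :
    x⁻¹ ∈ Cfsg.invertedBy X t := by
  refine ⟨inv_mem hx.1, ?_⟩
  rw [← conj_inv, hx.2]

theorem one_mem_inverted {X : Subgroup M} {t : M} : (1 : M) ∈ Cfsg.invertedBy X t :=
  ⟨one_mem _, by simp⟩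

/-- The factorisation `X = C_X(t) · I_X(t)` for an involution `t` normalising the odd-order `X`. -/
theorem odd_factor {t : M} (ht : t * t = 1) {X : Subgroup M} (hodd : Odd (Nat.card X))
    (hnorm : ∀ x ∈ X, t * x * t⁻¹ ∈ X) {x : M} (hx : x ∈ X) :
    ∃! p : M × M, p.1 ∈ X ⊓ Subgroup.centralizer {t} ∧ p.2 ∈ Cfsg.invertedBy X t ∧
      x = p.1 * p.2 := by
  obtain ⟨k, hk⟩ := odd_sqrt hodd
  have hti : t⁻¹ = t := inv_eq_of_mul_eq_one_left ht
  have hcX : (t * x * t⁻¹)⁻¹ * x ∈ X := mul_mem (inv_mem (hnorm x hx)) hx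
  have hc : (t * x * t⁻¹)⁻¹ * x ∈ Cfsg.invertedBy X t := by
    refine ⟨hcX, ?_⟩
    rw [hti]
    have : t * ((t * x * t)⁻¹ * x) * t = (t * t) * x⁻¹ * (t * x * t) := by
      simp only [mul_inv_rev, hti]; group
    rw [this, ht, one_mul, mul_inv_rev, inv_inv]
  have hz := inverted_pow hc k
  obtain ⟨hzz, -⟩ := hk _ hcX
  set z := ((t * x * t⁻¹)⁻¹ * x) ^ k with hzdef
  refine ⟨(x * z⁻¹, z), ⟨Subgroup.mem_inf.mpr ⟨mul_mem hx (inv_mem hz.1), ?_⟩, hz, by simp⟩, ?_⟩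
  · rw [Subgroup.mem_centralizer_singleton_iff]
    have h1 : t * z⁻¹ * t⁻¹ = z := by rw [← conj_inv, hz.2, inv_inv]
    have h2 : t * (x * z⁻¹) * t⁻¹ = x * z⁻¹ := by
      have : t * (x * z⁻¹) * t⁻¹ = (t * x * t⁻¹) * (t * z⁻¹ * t⁻¹) := by group
      rw [this, h1]
      have h3 : t * x * t⁻¹ = x * (z * z)⁻¹ := by rw [hzz]; group
      rw [h3]; group
    first
      | exact (mul_inv_eq_iff_eq_mul.mp h2)
      | exact (mul_inv_eq_iff_eq_mul.mp h2).symm
  · rintro ⟨y', z'⟩ ⟨hy', hz', hxe⟩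
    simp only at hy' hz' hxe
    have hy'c : t * y' * t⁻¹ = y' := by
      have := Subgroup.mem_centralizer_singleton_iff.mp (Subgroup.mem_inf.mp hy').2
      first
        | exact mul_inv_eq_iff_eq_mul.mpr this
        | exact mul_inv_eq_iff_eq_mul.mpr this.symm
    have h1 : t * x * t⁻¹ = y' * z'⁻¹ := by
      rw [hxe]
      have : t * (y' * z') * t⁻¹ = (t * y' * t⁻¹) * (t * z' * t⁻¹) := by group
      rw [this, hy'c, hz'.2]
    have h2 : z' * z' = (t * x * t⁻¹)⁻¹ * x := by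
      rw [h1, hxe]; group
    have h3 : z' = z := (hk _ hcX).2 z' hz'.1 h2
    rw [h3] at hxe
    have h4 : y' = x * z⁻¹ := by rw [hxe]; group
    rw [h4, h3]

theorem odd_factor_card [Finite M] {t : M} (ht : t * t = 1) {X : Subgroup M}
    (hodd : Odd (Nat.card X)) (hnorm : ∀ x ∈ X, t * x * t⁻¹ ∈ X) :
    Nat.card X = Nat.card ↥(X ⊓ Subgroup.centralizer {t}) * Nat.card (Cfsg.invertedBy X t) := by
  rw [← Nat.card_prod]
  symm
  refine Nat.card_congr (Equiv.ofBijective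
    (fun p : ↥(X ⊓ Subgroup.centralizer {t}) × (Cfsg.invertedBy X t) =>
      (⟨(p.1 : M) * (p.2 : M), mul_mem (Subgroup.mem_inf.mp p.1.2).1 p.2.2.1⟩ : X)) ⟨?_, ?_⟩)
  · rintro ⟨⟨y, hy⟩, ⟨z, hz⟩⟩ ⟨⟨y', hy'⟩, ⟨z', hz'⟩⟩ h
    have h' : y * z = y' * z' := congrArg Subtype.val h
    obtain ⟨p, -, hp⟩ := odd_factor ht hodd hnorm (mul_mem (Subgroup.mem_inf.mp hy).1 hz.1)
    have h1 := hp (y, z) ⟨hy, hz, rfl⟩
    have h2 := hp (y', z') ⟨hy', hz', h'⟩
    have h3 : (y, z) = (y', z') := h1.trans h2.symm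
    simp only [Prod.mk.injEq] at h3
    obtain ⟨rfl, rfl⟩ := h3
    rfl
  · rintro ⟨x, hx⟩
    obtain ⟨⟨y, z⟩, ⟨hy, hz, hxe⟩, -⟩ := odd_factor ht hodd hnorm hx
    exact ⟨(⟨y, hy⟩, ⟨z, hz⟩), Subtype.ext hxe.symm⟩

theorem centralizer_conj_inverted {t : M} {X : Subgroup M} {y z : M}
    (hy : y ∈ X ⊓ Subgroup.centralizer {t}) (hz : z ∈ Cfsg.invertedBy X t) :
    y * z * y⁻¹ ∈ Cfsg.invertedBy X t := by
  have hyX := (Subgroup.mem_inf.mp hy).1
  have hy'c : t * y * t⁻¹ = y := by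
    have := Subgroup.mem_centralizer_singleton_iff.mp (Subgroup.mem_inf.mp hy).2
    first
      | exact mul_inv_eq_iff_eq_mul.mpr this
      | exact mul_inv_eq_iff_eq_mul.mpr this.symm
  refine ⟨mul_mem (mul_mem hyX hz.1) (inv_mem hyX), ?_⟩
  have : t * (y * z * y⁻¹) * t⁻¹ = (t * y * t⁻¹) * (t * z * t⁻¹) * (t * y * t⁻¹)⁻¹ := by group
  rw [this, hy'c, hz.2]; group

theorem closure_inverted_normal {t : M} (ht : t * t = 1) {X : Subgroup M}
    (hodd : Odd (Nat.card X)) (hnorm : ∀ x ∈ X, t * x * t⁻¹ ∈ X) {x : M} (hx : x ∈ X) :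
    MulAut.conj x • Subgroup.closure (Cfsg.invertedBy X t) =
      Subgroup.closure (Cfsg.invertedBy X t) := by
  have key : ∀ y ∈ X ⊓ Subgroup.centralizer {t},
      MulAut.conj y • Subgroup.closure (Cfsg.invertedBy X t) ≤
        Subgroup.closure (Cfsg.invertedBy X t) := by
    intro y hy
    rw [Subgroup.smul_closure, Subgroup.closure_le]
    rintro _ ⟨z, hz, rfl⟩
    exact Subgroup.subset_closure (centralizer_conj_inverted hy hz)
  have key2 : ∀ y ∈ X ⊓ Subgroup.centralizer {t},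
      MulAut.conj y • Subgroup.closure (Cfsg.invertedBy X t) =
        Subgroup.closure (Cfsg.invertedBy X t) := by
    intro y hy
    refine le_antisymm (key y hy) ?_
    have h1 := key y⁻¹ (inv_mem hy)
    rw [map_inv, Subgroup.pointwise_smul_subset_iff] at h1
    simpa using h1
  obtain ⟨⟨y, z⟩, ⟨hy, hz, hxe⟩, -⟩ := odd_factor ht hodd hnorm hx
  simp only at hy hz hxe
  rw [hxe, map_mul, mul_smul, Subgroup.conj_smul_eq_self_of_mem (Subgroup.subset_closure hz),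
    key2 y hy]

end Cfsg.Agent.Lib.Helper24
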