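import Mathlib

set_option autoImplicit false

/-! LEMMA L of the ladder of helper38: an element of odd order normalizing a `2`-group `Q` and
centralizing a subgroup of index `2` of `Q` centralizes `Q`. -/

namespace Cfsg.Agent.Lib.Helper24.Z91

theorem lemmaL {Y : Type*} [Group Y] (Q A : Subgroup Y) (hAQ : A ≤ Q) (hidx : A.relIndex Q = 2)
    (hQ2 : IsPGroup 2 Q) (c : Y) (hcQ : c ∈ Subgroup.normalizer (Q : Set Y))
    (hodd : Odd (orderOf c)) (hcA : c ∈ Subgroup.centralizer (A : Set Y)) :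
    c ∈ Subgroup.centralizer (Q : Set Y) := by
  have hcomm : ∀ a ∈ A, c * a = a * c := fun a ha =>
    ((Subgroup.mem_centralizer_iff.1 hcA) a ha).symm
  -- index two: products of two elements outside `A` lie in `A`
  have hidx' : (A.subgroupOf Q).index = 2 := hidx
  have hmul : ∀ x ∈ Q, ∀ y ∈ Q, (x * y ∈ A ↔ (x ∈ A ↔ y ∈ A)) := by
    intro x hx y hy
    have := Subgroup.mul_mem_iff_of_index_two hidx' (a := ⟨x, hx⟩) (b := ⟨y, hy⟩)
    simpa [Subgroup.mem_subgroupOf] using this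
  have hnorm : ∀ x, x ∈ Q ↔ c * x * c⁻¹ ∈ Q := fun x => (Subgroup.mem_normalizer_iff.1 hcQ) x
  rw [Subgroup.mem_centralizer_iff]
  intro b hb
  by_cases hbA : b ∈ A
  · exact (hcomm b hbA).symm
  -- a' := b⁻¹ * (c b c⁻¹)
  set a' : Y := b⁻¹ * (c * b * c⁻¹) with ha'
  have hcb : c * b * c⁻¹ ∈ Q := (hnorm b).1 hb
  have hcbA : c * b * c⁻¹ ∉ A := by
    intro h
    apply hbA
    have h1 : c⁻¹ * (c * b * c⁻¹) * c = c * b * c⁻¹ := by
      have := hcomm _ h
      calc c⁻¹ * (c * b * c⁻¹) * c = c⁻¹ * ((c * b * c⁻¹) * c) := by group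
        _ = c⁻¹ * (c * (c * b * c⁻¹)) := by rw [this]
        _ = c * b * c⁻¹ := by group
    have h2 : c⁻¹ * (c * b * c⁻¹) * c = b := by group
    rw [← h2, h1]; exact h
  have ha'A : a' ∈ A := by
    rw [ha', hmul _ (Q.inv_mem hb) _ hcb]
    constructor
    · intro h; exact absurd (by simpa using A.inv_mem h) hbA
    · intro h; exact absurd h hcbA
  have hstep : c * b * c⁻¹ = b * a' := by rw [ha']; group
  have hiter : ∀ i : ℕ, c ^ i * b * (c ^ i)⁻¹ = b * a' ^ i := by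
    intro i
    induction i with
    | zero => simp
    | succ i ih =>
      have h1 : c ^ (i + 1) * b * (c ^ (i + 1))⁻¹ = c * (c ^ i * b * (c ^ i)⁻¹) * c⁻¹ := by
        rw [pow_succ']; group
      have h2 : c * a' ^ i * c⁻¹ = a' ^ i := by
        rw [hcomm _ (A.pow_mem ha'A i)]; group
      calc c ^ (i + 1) * b * (c ^ (i + 1))⁻¹ = c * (b * a' ^ i) * c⁻¹ := by rw [h1, ih]
        _ = (c * b * c⁻¹) * (c * a' ^ i * c⁻¹) := by group
        _ = b * a' * a' ^ i := by rw [hstep, h2]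
        _ = b * a' ^ (i + 1) := by rw [pow_succ', mul_assoc]
  have h1 : a' ^ orderOf c = 1 := by
    have := hiter (orderOf c)
    rw [pow_orderOf_eq_one] at this
    simpa using this.symm
  obtain ⟨k, hk⟩ := hQ2 ⟨a', hAQ ha'A⟩
  have hk' : a' ^ 2 ^ k = 1 := by simpa using congrArg Subtype.val hk
  have hcop : Nat.Coprime (orderOf c) (2 ^ k) :=
    Nat.Coprime.pow_right _ (Nat.coprime_two_right.mpr hodd)
  have ha1 : a' = 1 := by
    have h3 : orderOf a' ∣ Nat.gcd (orderOf c) (2 ^ k) :=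
      Nat.dvd_gcd (orderOf_dvd_of_pow_eq_one h1) (orderOf_dvd_of_pow_eq_one hk')
    rw [hcop] at h3
    exact orderOf_eq_one_iff.1 (Nat.dvd_one.1 h3)
  rw [ha1, mul_one] at hstep
  calc b * c = (c * b * c⁻¹) * c := by rw [hstep]
    _ = c * b := by group

end Cfsg.Agent.Lib.Helper24.Z91
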