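import Mathlib
import Cfsg.Agent.Lib.Helper24.Z91L
import Cfsg.Agent.Lib.Helper38.ZassB
import Cfsg.Agent.Lib.Helper53.Basic
import Cfsg.Agent.Lib.Helper14.Cores
import Cfsg.Agent.Lib.Helper59.TwoGroupUniq
import Cfsg.Agent.Lib.Helper59.TwoGroupRecog
import Cfsg.Agent.Lib.Helper19.QuatSylow
import Cfsg.Agent.S0017

set_option autoImplicit false

/-! RUNG W1a of the ladder of helper38. -/

namespace Cfsg.Agent.Lib.Helper24.Z91

theorem card_noncomm_pairs :
    Nat.card {p : QuaternionGroup 2 × QuaternionGroup 2 // p.1 * p.2 ≠ p.2 * p.1} = 24 := by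
  rw [Nat.card_eq_fintype_card]
  decide +kernel

theorem card_central_q8 :
    Nat.card {w : QuaternionGroup 2 // ∀ v, w * v = v * w} = 2 := by
  rw [Nat.card_eq_fintype_card]
  decide +kernel

/-- data extracted in the course of W1a -/
theorem W1a_core {Y : Type*} [Group Y] [Finite Y] (Q : Subgroup Y) [hQn : Q.Normal]
    (hQ2 : IsPGroup 2 Q) (hCQ : Subgroup.centralizer (Q : Set Y) ≤ Q)
    (hinv : ∀ s t : Y, orderOf s = 2 → orderOf t = 2 → s = t) (h2 : ¬ IsPGroup 2 Y) :
    Nat.card Q = 8 ∧ (Nat.card Y = 24 ∨ Nat.card Y = 48) := by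
  have : Fact (Nat.Prime 2) := ⟨Nat.prime_two⟩
  have hodd1 : ∀ c : Y, Odd (orderOf c) → c ∈ Subgroup.centralizer (Q : Set Y) → c = 1 := by
    intro c hc hcc
    obtain ⟨k, hk⟩ := hQ2 ⟨c, hCQ hcc⟩
    have hk' : c ^ 2 ^ k = 1 := by simpa using congrArg Subtype.val hk
    have h3 : orderOf c ∣ Nat.gcd (orderOf c) (2 ^ k) :=
      Nat.dvd_gcd dvd_rfl (orderOf_dvd_of_pow_eq_one hk')
    have hcop : Nat.Coprime (orderOf c) (2 ^ k) :=
      Nat.Coprime.pow_right _ (Nat.coprime_two_right.mpr hc)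
    rw [hcop] at h3
    exact orderOf_eq_one_iff.1 (Nat.dvd_one.1 h3)
  obtain ⟨r, hr, hrd, hr2⟩ : ∃ r, r.Prime ∧ r ∣ Nat.card Y ∧ r ≠ 2 := by
    by_contra hcon
    push Not at hcon
    apply h2
    exact IsPGroup.of_card (Nat.eq_prime_pow_of_unique_prime_dvd Nat.card_pos.ne'
      (fun {d} hd hdd => hcon d hd hdd))
  have : Fact r.Prime := ⟨hr⟩
  obtain ⟨c, hc⟩ := exists_prime_orderOf_dvd_card' r hrd
  have hcodd : Odd (orderOf c) := by rw [hc]; exact hr.odd_of_ne_two hr2
  have hc1 : c ≠ 1 := by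
    intro h; rw [h, orderOf_one] at hc; exact hr.one_lt.ne hc
  have hcnot : c ∉ Subgroup.centralizer (Q : Set Y) := fun h => hc1 (hodd1 c hcodd h)
  have hcN : c ∈ Subgroup.normalizer (Q : Set Y) := by
    rw [Subgroup.normalizer_eq_top]; exact Subgroup.mem_top c
  have huniq : ∀ x y : Q, orderOf x = 2 → orderOf y = 2 → x = y := by
    intro x y hx hy
    exact Subtype.ext (hinv x y (by rwa [Subgroup.orderOf_coe]) (by rwa [Subgroup.orderOf_coe]))
  rcases Cfsg.Agent.Lib.Helper59.two_group_unique_involution hQ2 huniq with hcyc | ⟨k, a, b, ha, hcard, hb, hbb, hba⟩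
  · exfalso
    obtain ⟨k, hk⟩ := IsPGroup.iff_card.1 hQ2
    exact hcnot (Cfsg.Agent.Lib.Helper19.odd_centralizes_cyclic_two Q k hk c
      (Nat.coprime_two_right.mpr hcodd))
  -- the quaternion case
  have ha' : orderOf (a : Y) = 4 * 2 ^ k := by rw [Subgroup.orderOf_coe]; exact ha
  have hb' : (b : Y) ∉ Subgroup.zpowers (a : Y) := by
    rintro ⟨i, hi⟩
    exact hb ⟨i, Subtype.ext (by simpa using hi)⟩
  have hbb' : (b : Y) * b = (a : Y) ^ (2 * 2 ^ k) := by
    simpa using congrArg Subtype.val hbb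
  have hba' : (b : Y) * a * (b : Y)⁻¹ = (a : Y)⁻¹ := by
    simpa using congrArg Subtype.val hba
  have hAQ : Subgroup.zpowers (a : Y) ≤ Q := by
    rw [Subgroup.zpowers_le]; exact a.2
  have hidx : (Subgroup.zpowers (a : Y)).relIndex Q = 2 := by
    have h1 := Cfsg.Agent.Lib.Helper14.card_mul_relIndex hAQ
    rw [Nat.card_zpowers, ha', hcard] at h1
    have h4 : 0 < 4 * 2 ^ k := by positivity
    have : 4 * 2 ^ k * (Subgroup.zpowers (a : Y)).relIndex Q = 4 * 2 ^ k * 2 := by
      rw [h1]; ring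
    exact Nat.eq_of_mul_eq_mul_left h4 this
  have hk0 : k = 0 := by
    by_contra hk
    have hmul : ∀ x ∈ Q, ∀ y ∈ Q, (x * y ∈ Subgroup.zpowers (a : Y) ↔
        (x ∈ Subgroup.zpowers (a : Y) ↔ y ∈ Subgroup.zpowers (a : Y))) := by
      intro x hx y hy
      have hidx' : ((Subgroup.zpowers (a : Y)).subgroupOf Q).index = 2 := hidx
      have := Subgroup.mul_mem_iff_of_index_two hidx' (a := ⟨x, hx⟩) (b := ⟨y, hy⟩)
      simpa [Subgroup.mem_subgroupOf] using this
    have h4 : ∀ x ∈ Q, x ∉ Subgroup.zpowers (a : Y) → x ^ 4 = 1 := by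
      intro x hx hxA
      have h1 : (b : Y)⁻¹ * x ∈ Subgroup.zpowers (a : Y) := by
        rw [hmul _ (Q.inv_mem b.2) _ hx]
        constructor
        · intro h; exact absurd (by simpa using (Subgroup.zpowers (a : Y)).inv_mem h) hb'
        · intro h; exact absurd h hxA
      obtain ⟨i, hi⟩ := h1
      have hi' : (a : Y) ^ i = (b : Y)⁻¹ * x := hi
      have hx' : x = b * (a : Y) ^ i := by rw [hi']; group
      have hconj : (b : Y) * (a : Y) ^ i * (b : Y)⁻¹ = ((a : Y) ^ i)⁻¹ := by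
        rw [← conj_zpow, hba', inv_zpow]
      have hsq : x * x = (a : Y) ^ (2 * 2 ^ k) := by
        calc x * x = ((b : Y) * (a : Y) ^ i * (b : Y)⁻¹) * ((b : Y) * b) * (a : Y) ^ i := by
              rw [hx']; group
          _ = ((a : Y) ^ i)⁻¹ * (a : Y) ^ (2 * 2 ^ k) * (a : Y) ^ i := by rw [hconj, hbb']
          _ = (a : Y) ^ (2 * 2 ^ k) := by
              rw [← zpow_natCast, ← zpow_neg, ← zpow_add, ← zpow_add]
              congr 1; ring
      calc x ^ 4 = (x * x) * (x * x) := by rw [← pow_two, ← pow_two, ← pow_mul]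
        _ = (a : Y) ^ (4 * 2 ^ k) := by rw [hsq, ← pow_add]; congr 1; ring
        _ = 1 := by rw [← ha', pow_orderOf_eq_one]
    have hconjA : ∀ y : Y, y * a * y⁻¹ ∈ Subgroup.zpowers (a : Y) := by
      intro y
      by_contra hy
      have h5 := h4 _ (hQn.conj_mem a a.2 y) hy
      rw [conj_pow] at h5
      have h6 : (a : Y) ^ 4 = 1 := by
        have : (a : Y) ^ 4 = y⁻¹ * (y * (a : Y) ^ 4 * y⁻¹) * y := by group
        rw [this, h5]; group
      have h7 := orderOf_dvd_of_pow_eq_one h6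
      rw [ha'] at h7
      have h8 := Nat.le_of_dvd (by norm_num) h7
      have h9 : 2 ≤ 2 ^ k := by
        calc 2 = 2 ^ 1 := by norm_num
          _ ≤ 2 ^ k := Nat.pow_le_pow_right (by norm_num) (Nat.one_le_iff_ne_zero.mpr hk)
      omega
    have hAn : (Subgroup.zpowers (a : Y)).Normal := by
      refine ⟨?_⟩
      rintro _ ⟨i, rfl⟩ y
      show y * (a : Y) ^ i * y⁻¹ ∈ _
      rw [← conj_zpow]
      exact Subgroup.zpow_mem _ (hconjA y) i
    have hcardA : Nat.card (Subgroup.zpowers (a : Y)) = 2 ^ (k + 2) := by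
      rw [Nat.card_zpowers, ha']; ring
    have hcA := Cfsg.Agent.Lib.Helper19.odd_centralizes_cyclic_two (Subgroup.zpowers (a : Y))
      (k + 2) hcardA c (Nat.coprime_two_right.mpr hcodd)
    exact hcnot (lemmaL Q _ hAQ hidx hQ2 c hcN hcodd hcA)
  subst hk0
  have hcard8 : Nat.card Q = 8 := by rw [hcard]; norm_num
  obtain ⟨e⟩ := Cfsg.Agent.Lib.Helper59.quaternion_recog 2 (by norm_num) a b (by rw [ha]; norm_num)
    (by rw [hbb]; norm_num) hba hb (by rw [hcard]; norm_num)
  -- a and b generate Q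
  have hgen : Subgroup.closure ({a, b} : Set Q) = ⊤ := by
    have h1 : Subgroup.zpowers a ≤ Subgroup.closure ({a, b} : Set Q) := by
      rw [Subgroup.zpowers_le]; exact Subgroup.subset_closure (by simp)
    have h2' : b ∈ Subgroup.closure ({a, b} : Set Q) := Subgroup.subset_closure (by simp)
    have h3 : Nat.card (Subgroup.zpowers a) = 4 := by rw [Nat.card_zpowers, ha]; norm_num
    have h4 : 4 ∣ Nat.card (Subgroup.closure ({a, b} : Set Q)) := by
      rw [← h3]; exact Subgroup.card_dvd_of_le h1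
    have h5 : Nat.card (Subgroup.closure ({a, b} : Set Q)) ∣ 8 := by
      rw [← hcard8]; exact Subgroup.card_subgroup_dvd_card _
    have h6 : Nat.card (Subgroup.closure ({a, b} : Set Q)) ≠ 4 := by
      intro h
      have := Subgroup.eq_of_le_of_card_ge h1 (by rw [h, h3])
      exact hb (this ▸ h2')
    apply Subgroup.eq_top_of_card_eq
    rw [hcard8]
    obtain ⟨m, hm⟩ := h4
    have h7 := Nat.le_of_dvd (by norm_num) h5
    have h8 : m ≠ 0 := by
      rintro rfl
      rw [hm] at h5; norm_num at h5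
    have : m = 1 ∨ m = 2 := by omega
    rcases this with rfl | rfl
    · exact absurd hm h6
    · rw [hm]
  let φ : Y →* MulAut Q := MulAut.conjNormal
  have hφ : ∀ (y : Y) (q : Q), ((φ y q : Q) : Y) = y * q * y⁻¹ := fun y q => rfl
  have hker : ∀ y, y ∈ φ.ker → y ∈ Subgroup.centralizer (Q : Set Y) := by
    intro y hy
    rw [Subgroup.mem_centralizer_iff]
    intro q hq
    have h1 : φ y ⟨q, hq⟩ = ⟨q, hq⟩ := by rw [MonoidHom.mem_ker.1 hy]; rfl
    have h2' := congrArg Subtype.val h1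
    rw [hφ] at h2'
    have h3 : y * q * y⁻¹ = q := h2'
    calc q * y = (y * q * y⁻¹) * y := by rw [h3]
      _ = y * q := by group
  have hab : a * b ≠ b * a := by
    intro h
    have h1 : b * a * b⁻¹ = a := by rw [← h]; group
    rw [hba] at h1
    have h2' : a ^ 2 = 1 := by rw [pow_two]; nth_rewrite 1 [← h1]; group
    have h3 := orderOf_dvd_of_pow_eq_one h2'
    rw [ha] at h3
    norm_num at h3
  have hAut : Nat.card (MulAut Q) ≤ 24 := by
    rw [← card_noncomm_pairs]
    refine Nat.card_le_card_of_injective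
      (fun β : MulAut Q => (⟨(e (β a), e (β b)), ?_⟩ :
        {p : QuaternionGroup 2 × QuaternionGroup 2 // p.1 * p.2 ≠ p.2 * p.1})) ?_
    · show e (β a) * e (β b) ≠ e (β b) * e (β a)
      rw [← map_mul, ← map_mul, ← map_mul, ← map_mul]
      intro h
      exact hab (β.injective (e.injective h))
    · intro β γ h
      have h1 : e (β a) = e (γ a) := congrArg (fun p => p.1.1) h
      have h2' : e (β b) = e (γ b) := congrArg (fun p => p.1.2) h
      have h3 : β.toMonoidHom = γ.toMonoidHom := by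
        apply MonoidHom.eq_of_eqOn_dense hgen
        intro x hx
        rcases hx with rfl | rfl
        · exact e.injective h1
        · exact e.injective h2'
      ext x
      exact congrArg Subtype.val (DFunLike.congr_fun h3 x)
  have hkercard : Nat.card φ.ker ≤ 2 := by
    rw [← card_central_q8]
    refine Nat.card_le_card_of_injective
      (fun z : φ.ker => (⟨e ⟨z, hCQ (hker z z.2)⟩, ?_⟩ :
        {w : QuaternionGroup 2 // ∀ v, w * v = v * w})) ?_
    · intro v
      obtain ⟨q, rfl⟩ := e.surjective v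
      rw [← map_mul, ← map_mul]
      congr 1
      apply Subtype.ext
      exact ((Subgroup.mem_centralizer_iff.1 (hker z z.2)) q q.2).symm
    · intro z w h
      have h1 : e ⟨z, hCQ (hker z z.2)⟩ = e ⟨w, hCQ (hker w w.2)⟩ := congrArg Subtype.val h
      have h2' := congrArg Subtype.val (e.injective h1)
      exact Subtype.ext h2'
  have hle : Nat.card Y ≤ 48 := by
    rw [← Subgroup.card_mul_index φ.ker, Subgroup.index_ker]
    have h1 : Nat.card φ.range ≤ Nat.card (MulAut Q) :=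
      Nat.card_le_card_of_injective _ (Subgroup.subtype_injective _)
    calc Nat.card φ.ker * Nat.card φ.range ≤ 2 * 24 := Nat.mul_le_mul hkercard (h1.trans hAut)
      _ = 48 := by norm_num
  have hr3 : r = 3 := by
    by_contra hr3
    have h1 : orderOf (φ c) ∣ r := by rw [← hc]; exact orderOf_map_dvd φ c
    have h2' : ¬ 2 ∣ orderOf (φ c) := fun h =>
      hr2 ((Nat.prime_dvd_prime_iff_eq Nat.prime_two hr).1 (h.trans h1)).symm
    have h3 : ¬ 3 ∣ orderOf (φ c) := fun h =>
      hr3 ((Nat.prime_dvd_prime_iff_eq Nat.prime_three hr).1 (h.trans h1)).symm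
    have h4 := Cfsg.Agent.Lib.Helper38.Zass.aut_eq_one_of_two_gen hQ2 a b hgen (φ c) h2' h3
    exact hcnot (hker c (MonoidHom.mem_ker.2 h4))
  subst hr3
  have h8 : 8 ∣ Nat.card Y := by rw [← hcard8]; exact Subgroup.card_subgroup_dvd_card Q
  have h24 : 24 ∣ Nat.card Y := by
    have : (8 * 3) ∣ Nat.card Y := Nat.Coprime.mul_dvd_of_dvd_of_dvd (by norm_num) h8 hrd
    simpa using this
  refine ⟨hcard8, ?_⟩
  obtain ⟨m, hm⟩ := h24
  have hpos : 0 < Nat.card Y := Nat.card_pos
  have : m = 1 ∨ m = 2 := by omega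
  rcases this with rfl | rfl
  · left; rw [hm]
  · right; rw [hm]

theorem W1a {Y : Type*} [Group Y] [Finite Y] [Group.IsSolvable Y]
    (hO : Cfsg.pPrimeCore 2 Y = ⊥)
    (hinv : ∀ s t : Y, orderOf s = 2 → orderOf t = 2 → s = t) (h2 : ¬ IsPGroup 2 Y) :
    Nat.card (Cfsg.pCore 2 Y) = 8 ∧ (Nat.card Y = 24 ∨ Nat.card Y = 48) := by
  have : Fact (Nat.Prime 2) := ⟨Nat.prime_two⟩
  have := Cfsg.Agent.Lib.Helper53.pCore_normal 2 Y
  exact W1a_core (Cfsg.pCore 2 Y) (Cfsg.Agent.Lib.Helper53.pCore_isPGroup 2 Y)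
    (Cfsg.Agent.S0017.result 2 hO) hinv h2

end Cfsg.Agent.Lib.Helper24.Z91
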