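import Mathlib
import Cfsg.Agent.Lib.Helper24.Z91W1a
import Cfsg.Agent.S0228
import Cfsg.Agent.S1012

set_option autoImplicit false

/-! RUNGS W1b and W1c of the ladder of helper38. -/

namespace Cfsg.Agent.Lib.Helper24.Z91

section common

variable {Y : Type*} [Group Y]

theorem conj_invol (hinv : ∀ s t : Y, orderOf s = 2 → orderOf t = 2 → s = t) {z : Y}
    (hz : orderOf z = 2) (y : Y) : y * z * y⁻¹ = z := by
  apply hinv _ _ _ hz
  have := (MulAut.conj y).orderOf_eq z
  rw [MulAut.conj_apply] at this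
  rw [this, hz]

theorem mem_zpowers_two {z : Y} (hz : orderOf z = 2) (x : Y) :
    x ∈ Subgroup.zpowers z ↔ x = 1 ∨ x = z := by
  constructor
  · rintro ⟨i, rfl⟩
    show z ^ i = 1 ∨ z ^ i = z
    rw [← zpow_mod_orderOf, hz]
    have h1 : i % (2 : ℕ) = 0 ∨ i % (2 : ℕ) = 1 := by
      have : ((2 : ℕ) : ℤ) = 2 := rfl
      rw [this]; omega
    rcases h1 with h | h
    · left; rw [h, zpow_zero]
    · right; rw [h, zpow_one]
  · rintro (rfl | rfl)
    · exact Subgroup.one_mem _
    · exact Subgroup.mem_zpowers _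

theorem zpowers_normal_of_invol (hinv : ∀ s t : Y, orderOf s = 2 → orderOf t = 2 → s = t) {z : Y}
    (hz : orderOf z = 2) : (Subgroup.zpowers z).Normal := by
  refine ⟨?_⟩
  intro x hx y
  rcases (mem_zpowers_two hz x).1 hx with rfl | rfl
  · simp
  · rw [conj_invol hinv hz]; exact Subgroup.mem_zpowers _

theorem lift_invol (hinv : ∀ s t : Y, orderOf s = 2 → orderOf t = 2 → s = t) {z : Y}
    (hz : orderOf z = 2) {t : Y} (ht : t ∉ Subgroup.zpowers z) (htt : t * t ∈ Subgroup.zpowers z) :
    t * t = z ∧ orderOf t = 4 := by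
  have hz1 : z ≠ 1 := by
    intro h; rw [h, orderOf_one] at hz; norm_num at hz
  have h1 : t * t = z := by
    rcases (mem_zpowers_two hz _).1 htt with h | h
    · exfalso
      have ht1 : t ≠ 1 := fun h1 => ht (h1 ▸ Subgroup.one_mem _)
      have : orderOf t = 2 := orderOf_eq_prime (by rw [pow_two]; exact h) ht1
      exact ht (hinv t z this hz ▸ Subgroup.mem_zpowers z)
    · exact h
  refine ⟨h1, ?_⟩
  have : Fact (Nat.Prime 2) := ⟨Nat.prime_two⟩
  have h2 := orderOf_eq_prime_pow (p := 2) (n := 1) (x := t) (by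
    rw [pow_one, pow_two, h1]; exact hz1) (by
    have : t ^ 2 ^ (1 + 1) = (t * t) ^ 2 := by rw [← pow_two, ← pow_mul]; norm_num
    rw [this, h1, ← hz, pow_orderOf_eq_one])
  simpa using h2

theorem final_contra [Finite Y] (Q : Subgroup Y) [hQn : Q.Normal] (hQ : Nat.card Q = 8)
    (hCQ : Subgroup.centralizer (Q : Set Y) ≤ Q) {t c : Y} (htQ : t ∈ Q) (ht : orderOf t = 4)
    (hc : orderOf c = 3) (hct : c * t = t * c) : False := by
  have hQ2 : IsPGroup 2 Q := IsPGroup.of_card (n := 3) (by rw [hQ]; norm_num)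
  have hAQ : Subgroup.zpowers t ≤ Q := by rw [Subgroup.zpowers_le]; exact htQ
  have hidx : (Subgroup.zpowers t).relIndex Q = 2 := by
    have h1 := Cfsg.Agent.Lib.Helper14.card_mul_relIndex hAQ
    rw [Nat.card_zpowers, ht, hQ] at h1
    omega
  have hcN : c ∈ Subgroup.normalizer (Q : Set Y) := by
    rw [Subgroup.normalizer_eq_top]; exact Subgroup.mem_top c
  have hcA : c ∈ Subgroup.centralizer ((Subgroup.zpowers t : Subgroup Y) : Set Y) := by
    rw [Subgroup.mem_centralizer_iff]
    rintro _ ⟨i, rfl⟩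
    show t ^ i * c = c * t ^ i
    exact ((Commute.zpow_right (show Commute c t from hct) i).eq).symm
  have h1 := hCQ (lemmaL Q _ hAQ hidx hQ2 c hcN (by rw [hc]; decide) hcA)
  have h2 : orderOf (⟨c, h1⟩ : Q) ∣ Nat.card Q := orderOf_dvd_natCard _
  rw [← Subgroup.orderOf_coe, hQ] at h2
  simp only [hc] at h2
  norm_num at h2

theorem mem_of_card_quot [Finite Y] (Q : Subgroup Y) [hQn : Q.Normal] {m : ℕ}
    (hm : Q.index = m) {t : Y} {n : ℕ} (ht : t ^ n = 1) (hmn : Nat.Coprime m n) : t ∈ Q := by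
  rw [← QuotientGroup.eq_one_iff]
  have h1 : (QuotientGroup.mk t : Y ⧸ Q) ^ m = 1 := by
    rw [← hm, Subgroup.index_eq_card]; exact pow_card_eq_one'
  have h2 : (QuotientGroup.mk t : Y ⧸ Q) ^ n = 1 := by
    rw [← QuotientGroup.mk_pow, ht]; rfl
  have h3 : orderOf (QuotientGroup.mk t : Y ⧸ Q) ∣ Nat.gcd m n :=
    Nat.dvd_gcd (orderOf_dvd_of_pow_eq_one h1) (orderOf_dvd_of_pow_eq_one h2)
  rw [hmn] at h3
  exact orderOf_eq_one_iff.1 (Nat.dvd_one.1 h3)

end common

theorem recog12 {Y : Type*} [Group Y] [Finite Y] (hcard : Nat.card Y = 24)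
    (hinv : ∀ s t : Y, orderOf s = 2 → orderOf t = 2 → s = t) (Q : Subgroup Y) [Q.Normal]
    (hQ : Nat.card Q = 8) (hCQ : Subgroup.centralizer (Q : Set Y) ≤ Q) (z : Y)
    (hz : orderOf z = 2) :
    ∃ f : Y →* alternatingGroup (Fin 4), Function.Surjective f ∧ f.ker = Subgroup.zpowers z := by
  have hZn := zpowers_normal_of_invol hinv hz
  have hcardq : Nat.card (Y ⧸ Subgroup.zpowers z) = 12 := by
    have h1 := Subgroup.card_eq_card_quotient_mul_card_subgroup (Subgroup.zpowers z)
    rw [hcard, Nat.card_zpowers, hz] at h1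
    omega
  have : Fact (Nat.Prime 3) := ⟨Nat.prime_three⟩
  obtain ⟨c, hc⟩ := exists_prime_orderOf_dvd_card' (G := Y) 3 (by rw [hcard]; norm_num)
  have hindex : Q.index = 3 := by
    have := Q.card_mul_index
    rw [hQ, hcard] at this
    omega
  have hno : ∀ w : Y ⧸ Subgroup.zpowers z, orderOf w = 2 → w ∉ Subgroup.center _ := by
    intro w hw hwc
    obtain ⟨t, rfl⟩ := QuotientGroup.mk_surjective w
    have ht : t ∉ Subgroup.zpowers z := by
      intro h
      rw [(QuotientGroup.eq_one_iff t).2 h, orderOf_one] at hw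
      norm_num at hw
    have htt : t * t ∈ Subgroup.zpowers z := by
      rw [← QuotientGroup.eq_one_iff, QuotientGroup.mk_mul, ← pow_two, ← hw, pow_orderOf_eq_one]
    obtain ⟨h1, h4⟩ := lift_invol hinv hz ht htt
    have hconj : ∀ y : Y, y * t * y⁻¹ ∈ Subgroup.zpowers t := by
      intro y
      have h2 : (QuotientGroup.mk (y * t * y⁻¹) : Y ⧸ Subgroup.zpowers z) = QuotientGroup.mk t := by
        rw [QuotientGroup.mk_mul, QuotientGroup.mk_mul, QuotientGroup.mk_inv,
          (Subgroup.mem_center_iff.1 hwc) (QuotientGroup.mk y), mul_inv_cancel_right]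
      have h3 := QuotientGroup.eq.1 h2.symm
      rcases (mem_zpowers_two hz _).1 h3 with h | h
      · have : y * t * y⁻¹ = t := by
          calc y * t * y⁻¹ = t * (t⁻¹ * (y * t * y⁻¹)) := by group
            _ = t := by rw [h, mul_one]
        rw [this]; exact Subgroup.mem_zpowers t
      · have : y * t * y⁻¹ = t ^ 3 := by
          calc y * t * y⁻¹ = t * (t⁻¹ * (y * t * y⁻¹)) := by group
            _ = t * (t * t) := by rw [h, h1]
            _ = t ^ 3 := by rw [pow_succ', pow_two]
        rw [this]; exact Subgroup.pow_mem _ (Subgroup.mem_zpowers t) 3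
    have hTn : (Subgroup.zpowers t).Normal := by
      refine ⟨?_⟩
      rintro _ ⟨i, rfl⟩ y
      show y * t ^ i * y⁻¹ ∈ _
      rw [← conj_zpow]
      exact Subgroup.zpow_mem _ (hconj y) i
    have hcT := Cfsg.Agent.Lib.Helper19.odd_centralizes_cyclic_two (Subgroup.zpowers t) 2
      (by rw [Nat.card_zpowers, h4]; norm_num) c (by rw [hc]; norm_num)
    have hct : c * t = t * c :=
      ((Subgroup.mem_centralizer_iff.1 hcT) t (Subgroup.mem_zpowers t)).symm
    have htQ : t ∈ Q := mem_of_card_quot Q hindex (n := 4) (by rw [← h4, pow_orderOf_eq_one])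
      (by norm_num)
    exact final_contra Q hQ hCQ htQ h4 hc hct
  obtain ⟨e⟩ := Cfsg.Agent.S0228.result hcardq hno
  refine ⟨e.toMonoidHom.comp (QuotientGroup.mk' _), ?_, ?_⟩
  · exact e.surjective.comp (QuotientGroup.mk'_surjective _)
  · ext x
    rw [MonoidHom.mem_ker]
    show e (QuotientGroup.mk x) = 1 ↔ _
    rw [map_eq_one_iff e e.injective, QuotientGroup.eq_one_iff]

theorem recog24 {Y : Type*} [Group Y] [Finite Y] (hcard : Nat.card Y = 48)
    (hinv : ∀ s t : Y, orderOf s = 2 → orderOf t = 2 → s = t) (Q : Subgroup Y) [hQn : Q.Normal]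
    (hQ : Nat.card Q = 8) (hCQ : Subgroup.centralizer (Q : Set Y) ≤ Q) (z : Y)
    (hz : orderOf z = 2) :
    ∃ f : Y →* Equiv.Perm (Fin 4), Function.Surjective f ∧ f.ker = Subgroup.zpowers z := by
  have hZn := zpowers_normal_of_invol hinv hz
  have hcardq : Nat.card (Y ⧸ Subgroup.zpowers z) = 24 := by
    have h1 := Subgroup.card_eq_card_quotient_mul_card_subgroup (Subgroup.zpowers z)
    rw [hcard, Nat.card_zpowers, hz] at h1
    omega
  have hindex : Q.index = 6 := by
    have := Q.card_mul_index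
    rw [hQ, hcard] at this
    omega
  have hQ2 : IsPGroup 2 Q := IsPGroup.of_card (n := 3) (by rw [hQ]; norm_num)
  have hno : ∀ w : Y ⧸ Subgroup.zpowers z, orderOf w ≠ 6 := by
    intro w hw
    obtain ⟨y, rfl⟩ := QuotientGroup.mk_surjective w
    have hpow : ∀ n : ℕ, y ^ n ∈ Subgroup.zpowers z ↔ 6 ∣ n := by
      intro n
      rw [← QuotientGroup.eq_one_iff, QuotientGroup.mk_pow, ← hw, orderOf_dvd_iff_pow_eq_one]
    have ht : y ^ 3 ∉ Subgroup.zpowers z := by rw [hpow]; norm_num
    have htt : y ^ 3 * y ^ 3 ∈ Subgroup.zpowers z := by rw [← pow_add, hpow]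
    obtain ⟨h1, h4⟩ := lift_invol hinv hz ht htt
    have hy12 : y ^ 12 = 1 := by
      have : y ^ 12 = (y ^ 3) ^ 4 := by rw [← pow_mul]
      rw [this, ← h4, pow_orderOf_eq_one]
    have hc : orderOf (y ^ 4) = 3 := by
      apply orderOf_eq_prime
      · rw [← pow_mul]; exact hy12
      · intro h
        have : y ^ 4 ∈ Subgroup.zpowers z := h ▸ Subgroup.one_mem _
        rw [hpow] at this
        norm_num at this
    have hct : y ^ 4 * y ^ 3 = y ^ 3 * y ^ 4 := by rw [← pow_add, ← pow_add]
    set t := y ^ 3 with htdef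
    set c := y ^ 4 with hcdef
    have hcQ : c ∉ Q := by
      intro h
      have h2 : orderOf (⟨c, h⟩ : Q) ∣ Nat.card Q := orderOf_dvd_natCard _
      rw [← Subgroup.orderOf_coe, hQ] at h2
      simp only [hc] at h2
      norm_num at h2
    have htQ : t ∈ Q := by
      by_contra htQ
      -- the quotient by Q is cyclic of order six
      have hzQ : z ∈ Q := by
        have hzc : z ∈ Subgroup.centralizer (Q : Set Y) := by
          rw [Subgroup.mem_centralizer_iff]
          intro q _
          have := conj_invol hinv hz q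
          calc q * z = (q * z * q⁻¹) * q := by group
            _ = z * q := by rw [this]
        exact hCQ hzc
      have hot : orderOf (QuotientGroup.mk t : Y ⧸ Q) = 2 := by
        apply orderOf_eq_prime
        · rw [← QuotientGroup.mk_pow, pow_two, h1]
          exact (QuotientGroup.eq_one_iff z).2 hzQ
        · intro h; exact htQ ((QuotientGroup.eq_one_iff t).1 h)
      have hoc : orderOf (QuotientGroup.mk c : Y ⧸ Q) = 3 := by
        apply orderOf_eq_prime
        · rw [← QuotientGroup.mk_pow, ← hc, pow_orderOf_eq_one]; rfl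
        · intro h; exact hcQ ((QuotientGroup.eq_one_iff c).1 h)
      have hcomm : Commute (QuotientGroup.mk t : Y ⧸ Q) (QuotientGroup.mk c) := by
        show (QuotientGroup.mk t : Y ⧸ Q) * QuotientGroup.mk c = QuotientGroup.mk c * QuotientGroup.mk t
        rw [← QuotientGroup.mk_mul, ← QuotientGroup.mk_mul, hct]
      have ho6 : orderOf ((QuotientGroup.mk t : Y ⧸ Q) * QuotientGroup.mk c) = Nat.card (Y ⧸ Q) := by
        rw [hcomm.orderOf_mul_eq_mul_orderOf_of_coprime (by rw [hot, hoc]; norm_num), hot, hoc,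
          ← Subgroup.index_eq_card, hindex]
      have hcyc : IsCyclic (Y ⧸ Q) := isCyclic_of_orderOf_eq_card _ ho6
      let _ : CommGroup (Y ⧸ Q) := IsCyclic.commGroup
      have hSn : ((Subgroup.zpowers (QuotientGroup.mk t : Y ⧸ Q)).comap (QuotientGroup.mk' Q)).Normal :=
        Subgroup.Normal.comap (Subgroup.normal_of_isMulCommutative _) _
      set S := (Subgroup.zpowers (QuotientGroup.mk t : Y ⧸ Q)).comap (QuotientGroup.mk' Q) with hS
      have hQS : Q ≤ S := by
        intro q hq
        show (QuotientGroup.mk q : Y ⧸ Q) ∈ Subgroup.zpowers (QuotientGroup.mk t : Y ⧸ Q)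
        rw [(QuotientGroup.eq_one_iff q).2 hq]; exact Subgroup.one_mem _
      have htS : t ∈ S := by
        show (QuotientGroup.mk t : Y ⧸ Q) ∈ Subgroup.zpowers (QuotientGroup.mk t : Y ⧸ Q)
        exact Subgroup.mem_zpowers _
      have hS2 : IsPGroup 2 S := by
        intro s
        have hs : (QuotientGroup.mk (s : Y) : Y ⧸ Q) ∈ Subgroup.zpowers (QuotientGroup.mk t : Y ⧸ Q) := s.2
        have hs2 : (s : Y) ^ 2 ∈ Q := by
          rw [← QuotientGroup.eq_one_iff, QuotientGroup.mk_pow]
          rcases (mem_zpowers_two hot _).1 hs with h | h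
          · rw [h, one_pow]
          · rw [h, ← hot, pow_orderOf_eq_one]
        obtain ⟨k, hk⟩ := hQ2 ⟨_, hs2⟩
        refine ⟨k + 1, Subtype.ext ?_⟩
        have hk' : ((s : Y) ^ 2) ^ 2 ^ k = 1 := by simpa using congrArg Subtype.val hk
        rw [Subgroup.coe_pow, pow_succ', pow_mul, hk']; rfl
      have hCS : Subgroup.centralizer (S : Set Y) ≤ S :=
        ((Subgroup.centralizer_le (by exact_mod_cast hQS)).trans hCQ).trans hQS
      have hnot2 : ¬ IsPGroup 2 Y := by
        intro h
        obtain ⟨k, hk⟩ := h c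
        have h3 := orderOf_dvd_of_pow_eq_one hk
        rw [hc] at h3
        have := (Nat.prime_dvd_prime_iff_eq Nat.prime_three Nat.prime_two).1
          (Nat.prime_three.dvd_of_dvd_pow h3)
        norm_num at this
      have h8 := (W1a_core S hS2 hCS hinv hnot2).1
      have hSQ : Q = S := Subgroup.eq_of_le_of_card_ge hQS (by rw [h8, hQ])
      exact htQ (hSQ ▸ htS)
    exact final_contra Q hQ hCQ htQ h4 hc hct
  obtain ⟨e⟩ := Cfsg.Agent.S1012.result hcardq hno
  refine ⟨e.toMonoidHom.comp (QuotientGroup.mk' _), ?_, ?_⟩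
  · exact e.surjective.comp (QuotientGroup.mk'_surjective _)
  · ext x
    rw [MonoidHom.mem_ker]
    show e (QuotientGroup.mk x) = 1 ↔ _
    rw [map_eq_one_iff e e.injective, QuotientGroup.eq_one_iff]

end Cfsg.Agent.Lib.Helper24.Z91
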