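import Mathlib
import Cfsg.Agent.Lib.Helper24.Z91W1b
import Cfsg.Agent.Lib.Helper11.TwoComplement
import Cfsg.Agent.Lib.Helper71.SL23

set_option autoImplicit false
set_option linter.unusedSectionVars false

/-! RUNG T3b of the ladder of helper61 (S3361): groups of order 24, 48, 120, 528 with a normal
quaternion subgroup of order eight. -/

namespace Cfsg.Agent.Lib.Helper24.Q8Cases

open Cfsg.Agent.Lib.Helper24.Z91 Cfsg.Agent.Lib.Helper71

/-- a group of order twice an odd number has a normal subgroup of index two -/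
theorem exists_index_two_of_two_odd {X : Type*} [Group X] [Finite X] {m : ℕ}
    (hX : Nat.card X = 2 * m) (hm : Odd m) : ∃ M : Subgroup X, M.Normal ∧ M.index = 2 := by
  have : Fact (Nat.Prime 2) := ⟨Nat.prime_two⟩
  obtain ⟨T⟩ : Nonempty (Sylow 2 X) := inferInstance
  obtain ⟨k, hk⟩ := IsPGroup.iff_card.mp T.isPGroup'
  have hk' : Nat.card (T : Subgroup X) = 2 ^ k := hk
  have hidx := (T : Subgroup X).card_mul_index
  have hnd := T.not_dvd_index
  have hk1 : k = 1 := by
    rw [hk', hX] at hidx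
    rcases k with _ | _ | k
    · exfalso; apply hnd; rw [pow_zero, one_mul] at hidx; rw [hidx]; exact ⟨m, rfl⟩
    · rfl
    · exfalso
      have : 2 * (2 * 2 ^ k * (T : Subgroup X).index) = 2 * m := by rw [← hidx]; ring
      have h2 := Nat.eq_of_mul_eq_mul_left (by norm_num) this
      rw [← h2] at hm
      exact (Nat.not_even_iff_odd.2 hm) ⟨2 ^ k * (T : Subgroup X).index, by ring⟩
  subst hk1
  have hcyc : IsCyclic (T : Subgroup X) := isCyclic_of_prime_card (p := 2) (by rw [hk']; norm_num)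
  obtain ⟨M, hMn, hodd, j, hj⟩ := Cfsg.Agent.Lib.Helper11.NC_of_cyclic_sylow T hcyc
  refine ⟨M, hMn, ?_⟩
  have h1 := M.card_mul_index
  rw [hj, hX] at h1
  rcases j with _ | _ | j
  · exfalso
    rw [pow_zero, mul_one] at h1
    rw [h1] at hodd
    exact (Nat.not_even_iff_odd.2 hodd) ⟨m, by ring⟩
  · rw [hj]; norm_num
  · exfalso
    have : 2 * (Nat.card M * (2 * 2 ^ j)) = 2 * m := by rw [← h1]; ring
    have h2 := Nat.eq_of_mul_eq_mul_left (by norm_num) this
    rw [← h2] at hm
    exact (Nat.not_even_iff_odd.2 hm) ⟨Nat.card M * 2 ^ j, by ring⟩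

theorem pullback_index_two {H : Type*} [Group H] (N : Subgroup H) [N.Normal]
    (h : ∃ M : Subgroup (H ⧸ N), M.Normal ∧ M.index = 2) :
    ∃ M : Subgroup H, M.Normal ∧ M.index = 2 := by
  obtain ⟨M, hM, hi⟩ := h
  refine ⟨M.comap (QuotientGroup.mk' N), hM.comap _, ?_⟩
  rw [Subgroup.index_comap_of_surjective _ (QuotientGroup.mk'_surjective N), hi]

theorem exists_index_two_of_two_pow {X : Type*} [Group X] [Finite X] {k : ℕ}
    (hX : Nat.card X = 2 ^ (k + 1)) : ∃ M : Subgroup X, M.Normal ∧ M.index = 2 := by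
  have : Fact (Nat.Prime 2) := ⟨Nat.prime_two⟩
  obtain ⟨M, hM⟩ := Sylow.exists_subgroup_card_pow_prime (G := X) 2 (n := k)
    (by rw [hX]; exact pow_dvd_pow 2 (Nat.le_succ k))
  have hi : M.index = 2 := by
    have h1 := M.card_mul_index
    rw [hM, hX, pow_succ] at h1
    exact Nat.eq_of_mul_eq_mul_left (by positivity) h1
  exact ⟨M, Subgroup.normal_of_index_eq_two hi, hi⟩

/-- kernel of the covering homomorphism -/
theorem mem_ker_cover {Γ : Type*} [Group Γ] {w : Γ} (hw : orderOf w = 3)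
    (F : QuaternionGroup 2 →* Γ) (Θ : MT →* Γ) (hF : Function.Injective F)
    (hΘ : ∀ x : MT, Θ x = F x.left * w ^ (Multiplicative.toAdd x.right)) (x : MT) :
    x ∈ Θ.ker ↔ x.left = 1 ∧ (3 : ℤ) ∣ Multiplicative.toAdd x.right := by
  rw [MonoidHom.mem_ker, hΘ]
  constructor
  · intro hx
    set z : ℤ := Multiplicative.toAdd x.right with hz
    have hgz : w ^ z = F (x.left)⁻¹ := by
      rw [map_inv]; exact (inv_eq_of_mul_eq_one_right hx).symm
    have h8 : (w ^ z) ^ 8 = 1 := by
      rw [hgz, ← map_pow]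
      have : (x.left)⁻¹ ^ 8 = 1 := by
        have h := pow_card_eq_one (x := (x.left)⁻¹)
        rwa [QuaternionGroup.card] at h
      rw [this, map_one]
    have hmz : (w ^ z) ^ 3 = 1 := by
      rw [← zpow_natCast, ← zpow_mul, mul_comm, zpow_mul, zpow_natCast, ← hw, pow_orderOf_eq_one,
        one_zpow]
    have hgz1 : w ^ z = 1 := by
      have h1 : orderOf (w ^ z) ∣ 8 := orderOf_dvd_of_pow_eq_one h8
      have h2 : orderOf (w ^ z) ∣ 3 := orderOf_dvd_of_pow_eq_one hmz
      exact orderOf_eq_one_iff.1 (Nat.eq_one_of_dvd_coprimes (by norm_num : Nat.Coprime 8 3) h1 h2)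
    refine ⟨?_, ?_⟩
    · rw [hgz1, mul_one] at hx
      exact hF (by rw [hx, map_one])
    · have := orderOf_dvd_iff_zpow_eq_one.2 hgz1
      rwa [hw] at this
  · rintro ⟨h1, h2⟩
    rw [h1, map_one, one_mul]
    apply orderOf_dvd_iff_zpow_eq_one.1
    rw [hw]; exact h2

/-- a group containing `i, j, w` with the relations of `SL(2,3)` contains a copy of `SL(2,3)` -/
theorem exists_embedding {Γ : Type*} [Group Γ] (i j w : Γ) (hi : orderOf i = 4)
    (hj : j * j = i ^ 2) (hji : j * i * j⁻¹ = i⁻¹) (hjn : j ∉ Subgroup.zpowers i)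
    (hwi : w * i * w⁻¹ = j) (hwj : w * j * w⁻¹ = i * j) (hw : orderOf w = 3) :
    ∃ f : Matrix.SpecialLinearGroup (Fin 2) (ZMod 3) →* Γ, Function.Injective f ∧
      ∀ s, ∃ (u : Γ) (z : ℤ), u ^ 8 = 1 ∧ f s = u * w ^ z := by
  obtain ⟨r1, r2, r3, r4, r5, r6, r7, r8, r9⟩ := sl23_rel
  have : Fact (Nat.Prime 2) := ⟨Nat.prime_two⟩
  have : Fact (Nat.Prime 3) := ⟨Nat.prime_three⟩
  have hI : orderOf I3 = 4 := by
    have := orderOf_eq_prime_pow r1 r2
    simpa using this
  have hJn : J3 ∉ Subgroup.zpowers I3 := by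
    rintro ⟨k, hk⟩
    apply r5
    have hk' : I3 ^ k = J3 := hk
    rw [← hk']
    exact ((Commute.refl I3).zpow_right k).eq
  have hW : orderOf W3 = 3 := orderOf_eq_prime r8 r9
  obtain ⟨F1, Θ1, hF1, hΘ1, hc1⟩ := exists_hom_of_rel i j w hi hj hji hjn hwi hwj
  obtain ⟨F2, Θ2, hF2, hΘ2, hc2⟩ := exists_hom_of_rel I3 J3 W3 hI r3 r4 hJn r6 r7
  have hsurj : Function.Surjective Θ2 := by
    rw [← MonoidHom.range_eq_top]
    have h8 : 8 ∣ Nat.card Θ2.range := by
      have hle : F2.range ≤ Θ2.range := by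
        rintro _ ⟨u, rfl⟩
        refine ⟨⟨u, 1⟩, ?_⟩
        rw [hΘ2]; simp
      have hc : Nat.card F2.range = 8 := by
        rw [← Nat.card_congr (MonoidHom.ofInjective hF2).toEquiv, Nat.card_eq_fintype_card,
          QuaternionGroup.card]
      rw [← hc]; exact Subgroup.card_dvd_of_le hle
    have h3 : 3 ∣ Nat.card Θ2.range := by
      have hmem : W3 ∈ Θ2.range := by
        refine ⟨⟨1, Multiplicative.ofAdd 1⟩, ?_⟩
        rw [hΘ2]; simp
      have := Subgroup.orderOf_dvd_natCard _ hmem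
      rwa [hW] at this
    have h24 : 24 ∣ Nat.card Θ2.range :=
      (Nat.Coprime.mul_dvd_of_dvd_of_dvd (by norm_num : Nat.Coprime 8 3) h8 h3)
    apply Subgroup.eq_top_of_le_card
    rw [Nat.card_eq_fintype_card (α := Matrix.SpecialLinearGroup (Fin 2) (ZMod 3)), card_sl23]
    exact Nat.le_of_dvd Nat.card_pos h24
  have hker : Θ2.ker = Θ1.ker := by
    ext x
    rw [mem_ker_cover hW F2 Θ2 hF2 hΘ2, mem_ker_cover hw F1 Θ1 hF1 hΘ1]
  let f : Matrix.SpecialLinearGroup (Fin 2) (ZMod 3) →* Γ :=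
    Θ2.liftOfSurjective hsurj ⟨Θ1, hker.le⟩
  have hf : ∀ m, f (Θ2 m) = Θ1 m := fun m =>
    MonoidHom.liftOfRightInverse_comp_apply _ _ _ _ m
  refine ⟨f, ?_, ?_⟩
  · rw [injective_iff_map_eq_one]
    intro s hs
    obtain ⟨m, rfl⟩ := hsurj s
    rw [hf] at hs
    have : m ∈ Θ2.ker := by rw [hker]; exact hs
    exact this
  · intro s
    obtain ⟨m, rfl⟩ := hsurj s
    refine ⟨F1 m.left, Multiplicative.toAdd m.right, ?_, ?_⟩
    · rw [← map_pow]
      have h := pow_card_eq_one (x := m.left)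
      rw [QuaternionGroup.card] at h
      have h' : m.left ^ 8 = 1 := h
      rw [h', map_one]
    · rw [hf, hΘ1]

theorem q8_fact : ∀ u v t : QuaternionGroup 2, u ^ 2 ≠ 1 → v ^ 2 ≠ 1 → t ^ 2 ≠ 1 → v ≠ u →
    v ≠ u⁻¹ → t ≠ u → t ≠ u⁻¹ → t ≠ v → t ≠ v⁻¹ →
    (v * v = u ^ 2 ∧ v * u * v⁻¹ = u⁻¹ ∧ u * u = v ^ 2 ∧ u * v * u⁻¹ = v⁻¹ ∧
      (t = u * v ∨ t = v * u)) := by
  decide

section main

variable {H : Type*} [Group H] [Finite H] (N : Subgroup H) [hN : N.Normal]

theorem mem_centralizer_of_conjNormal_eq_one {g : H} (h : (MulAut.conjNormal g : MulAut N) = 1) :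
    g ∈ Subgroup.centralizer (N : Set H) := by
  rw [Subgroup.mem_centralizer_iff]
  intro q hq
  have h1 : (MulAut.conjNormal g : MulAut N) ⟨q, hq⟩ = ⟨q, hq⟩ := by rw [h]; rfl
  have h3 : g * q * g⁻¹ = q := congrArg Subtype.val h1
  calc q * g = (g * q * g⁻¹) * g := by rw [h3]
    _ = g * q := by group

variable (e : N ≃* QuaternionGroup 2)

include e in
theorem card_N : Nat.card N = 8 := by
  rw [Nat.card_congr e.toEquiv, Nat.card_eq_fintype_card, QuaternionGroup.card]

include e in
theorem mem_centralizer_of_coprime_six {g : H} (h2 : ¬ 2 ∣ orderOf g) (h3 : ¬ 3 ∣ orderOf g) :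
    g ∈ Subgroup.centralizer (N : Set H) := by
  have hN2 : IsPGroup 2 N := IsPGroup.of_card (n := 3) (by rw [card_N N e]; norm_num)
  have hgen : Subgroup.closure ({e.symm (QuaternionGroup.a 1), e.symm (QuaternionGroup.xa 0)} : Set N)
      = ⊤ := by
    have h1 := congrArg (Subgroup.map e.symm.toMonoidHom) closure_q8
    rw [MonoidHom.map_closure, Subgroup.map_top_of_surjective _ e.symm.surjective,
      Set.image_pair] at h1
    exact h1
  apply mem_centralizer_of_conjNormal_eq_one
  have hd : orderOf (MulAut.conjNormal g : MulAut N) ∣ orderOf g := orderOf_map_dvd _ g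
  exact Cfsg.Agent.Lib.Helper38.Zass.aut_eq_one_of_two_gen hN2 _ _ hgen _
    (fun h => h2 (h.trans hd)) (fun h => h3 (h.trans hd))

include e in
theorem centralizer_ne_top : Subgroup.centralizer (N : Set H) ≠ ⊤ := by
  intro h
  have h1 : ((e.symm (QuaternionGroup.a 1) : N) : H) ∈ Subgroup.centralizer (N : Set H) :=
    h ▸ Subgroup.mem_top _
  have h2 := (Subgroup.mem_centralizer_iff.1 h1) (e.symm (QuaternionGroup.xa 0) : N)
    (e.symm (QuaternionGroup.xa 0) : N).2
  have h3 : e.symm (QuaternionGroup.xa 0) * e.symm (QuaternionGroup.a 1)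
      = e.symm (QuaternionGroup.a 1) * e.symm (QuaternionGroup.xa 0) := Subtype.ext h2
  rw [← map_mul, ← map_mul] at h3
  have h4 := e.symm.injective h3
  revert h4
  decide

include e in
theorem caseA (hidx : (Subgroup.centralizer (N : Set H)).index ∣ 8) :
    ∃ M : Subgroup H, M.Normal ∧ M.index = 2 := by
  obtain ⟨k, -, hk⟩ := (Nat.dvd_prime_pow (m := 3) Nat.prime_two).1 (by simpa using hidx)
  apply pullback_index_two (Subgroup.centralizer (N : Set H))
  rcases k with _ | k
  · exfalso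
    rw [pow_zero, Subgroup.index_eq_one] at hk
    exact centralizer_ne_top N e hk
  · exact exists_index_two_of_two_pow (k := k) (by rw [← Subgroup.index_eq_card, hk])

include e in
theorem K1 {w : H} (hw : orderOf w = 3) (hwC : w ∉ Subgroup.centralizer (N : Set H)) {i : H}
    (hiN : i ∈ N) (hi : orderOf i = 4) : w * i * w⁻¹ ∉ Subgroup.zpowers i := by
  have hN2 : IsPGroup 2 N := IsPGroup.of_card (n := 3) (by rw [card_N N e]; norm_num)
  have hi4 : i ^ 4 = 1 := by rw [← hi, pow_orderOf_eq_one]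
  have hi2 : i ^ 2 ≠ 1 := by
    intro h
    have := orderOf_dvd_of_pow_eq_one h
    rw [hi] at this; norm_num at this
  have hi1 : i ≠ 1 := by
    rintro rfl; simp at hi
  have hw3 : w ^ 3 = 1 := by rw [← hw, pow_orderOf_eq_one]
  rintro ⟨k, hk⟩
  have hk' : i ^ k = w * i * w⁻¹ := hk
  rw [← zpow_mod_orderOf, hi] at hk'
  have hcases : k % ((4 : ℕ) : ℤ) = 0 ∨ k % ((4 : ℕ) : ℤ) = 1 ∨ k % ((4 : ℕ) : ℤ) = 2 ∨
      k % ((4 : ℕ) : ℤ) = 3 := by
    have : ((4 : ℕ) : ℤ) = 4 := rfl
    rw [this]; omega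
  rcases hcases with h | h | h | h
  · rw [h, zpow_zero] at hk'
    apply hi1
    calc i = w⁻¹ * (w * i * w⁻¹) * w := by group
      _ = 1 := by rw [← hk']; group
  · rw [h, zpow_one] at hk'
    have hct : w * i = i * w := by
      calc w * i = (w * i * w⁻¹) * w := by group
        _ = i * w := by rw [← hk']
    have hAQ : Subgroup.zpowers i ≤ N := by rw [Subgroup.zpowers_le]; exact hiN
    have hidx : (Subgroup.zpowers i).relIndex N = 2 := by
      have h1 := Cfsg.Agent.Lib.Helper14.card_mul_relIndex hAQ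
      rw [Nat.card_zpowers, hi, card_N N e] at h1
      omega
    have hcN : w ∈ Subgroup.normalizer (N : Set H) := by
      rw [Subgroup.normalizer_eq_top]; exact Subgroup.mem_top w
    have hcA : w ∈ Subgroup.centralizer ((Subgroup.zpowers i : Subgroup H) : Set H) := by
      rw [Subgroup.mem_centralizer_iff]
      rintro _ ⟨m, rfl⟩
      show i ^ m * w = w * i ^ m
      exact ((Commute.zpow_right (show Commute w i from hct) m).eq).symm
    exact hwC (lemmaL N _ hAQ hidx hN2 w hcN (by rw [hw]; decide) hcA)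
  · have h2 : i ^ (2 : ℤ) = i ^ 2 := by norm_cast
    rw [h, h2] at hk'
    apply hi2
    have h5 : (w * i * w⁻¹) ^ 2 = 1 := by rw [← hk', ← pow_mul]; exact hi4
    rw [conj_pow] at h5
    calc i ^ 2 = w⁻¹ * (w * i ^ 2 * w⁻¹) * w := by group
      _ = 1 := by rw [h5]; group
  · have h2 : i ^ (3 : ℤ) = i⁻¹ := by
      have : i ^ (3 : ℤ) = i ^ 3 := by norm_cast
      rw [this]
      apply eq_inv_of_mul_eq_one_left
      rw [← pow_succ]; exact hi4
    rw [h, h2] at hk'
    -- w i w⁻¹ = i⁻¹
    have h5 : w * i⁻¹ * w⁻¹ = i := by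
      have : w * i⁻¹ * w⁻¹ = (w * i * w⁻¹)⁻¹ := by group
      rw [this, ← hk', inv_inv]
    have h6 : w ^ 3 * i * (w ^ 3)⁻¹ = i⁻¹ := by
      calc w ^ 3 * i * (w ^ 3)⁻¹ = w * (w * (w * i * w⁻¹) * w⁻¹) * w⁻¹ := by
            rw [pow_succ, pow_two]; group
        _ = i⁻¹ := by rw [← hk', h5, ← hk']
    rw [hw3] at h6
    apply hi2
    have h7 : i = i⁻¹ := by simpa using h6
    rw [pow_two]
    nth_rewrite 1 [h7]
    group

include e in
theorem caseB {x : H} (hx : orderOf x = 3) (hxC : x ∉ Subgroup.centralizer (N : Set H)) :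
    ∃ i j w : H, orderOf i = 4 ∧ j * j = i ^ 2 ∧ j * i * j⁻¹ = i⁻¹ ∧ j ∉ Subgroup.zpowers i ∧
      w * i * w⁻¹ = j ∧ w * j * w⁻¹ = i * j ∧ orderOf w = 3 := by
  have hx3 : x ^ 3 = 1 := by rw [← hx, pow_orderOf_eq_one]
  have hxinv : orderOf x⁻¹ = 3 := by rw [orderOf_inv, hx]
  have hxinvC : x⁻¹ ∉ Subgroup.centralizer (N : Set H) := fun h =>
    hxC (by simpa using Subgroup.inv_mem _ h)
  have hconj4 : ∀ (g i : H), orderOf i = 4 → orderOf (g * i * g⁻¹) = 4 := by
    intro g i hi
    have := (MulAut.conj g).orderOf_eq i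
    rw [MulAut.conj_apply] at this
    rw [this, hi]
  set iN : N := e.symm (QuaternionGroup.a 1) with hiN
  have hi : orderOf (iN : H) = 4 := by
    rw [Subgroup.orderOf_coe, hiN, MulEquiv.orderOf_eq, QuaternionGroup.orderOf_a_one]
  set jN : N := ⟨x * iN * x⁻¹, hN.conj_mem _ iN.2 x⟩ with hjN
  have hj : orderOf (jN : H) = 4 := hconj4 x _ hi
  set kN : N := ⟨x * jN * x⁻¹, hN.conj_mem _ jN.2 x⟩ with hkN
  have hk : orderOf (kN : H) = 4 := hconj4 x _ hj
  have hkalt : (kN : H) = x⁻¹ * iN * (x⁻¹)⁻¹ := by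
    have h1 : x * x = x⁻¹ := by
      apply eq_inv_of_mul_eq_one_left
      rw [← pow_two, ← pow_succ]; exact hx3
    have h2 : x⁻¹ * x⁻¹ = x := by
      rw [← h1]
      calc x * x * (x * x) = x ^ 3 * x := by rw [pow_succ, pow_two]; group
        _ = x := by rw [hx3, one_mul]
    calc (kN : H) = (x * x) * iN * (x⁻¹ * x⁻¹) := by
          show x * (x * iN * x⁻¹) * x⁻¹ = _
          group
      _ = x⁻¹ * iN * (x⁻¹)⁻¹ := by rw [h1, h2, inv_inv]
  have hji : (jN : H) ∉ Subgroup.zpowers (iN : H) := K1 N e hx hxC iN.2 hi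
  have hkj : (kN : H) ∉ Subgroup.zpowers (jN : H) := K1 N e hx hxC jN.2 hj
  have hki : (kN : H) ∉ Subgroup.zpowers (iN : H) := by
    rw [hkalt]; exact K1 N e hxinv hxinvC iN.2 hi
  have hij : (iN : H) ∉ Subgroup.zpowers (jN : H) := by
    have h1 := K1 N e hxinv hxinvC jN.2 hj
    have h2 : x⁻¹ * (jN : H) * (x⁻¹)⁻¹ = iN := by
      show x⁻¹ * (x * iN * x⁻¹) * (x⁻¹)⁻¹ = iN
      group
    rwa [h2] at h1
  have hsq : ∀ n : N, orderOf (n : H) = 4 → (e n) ^ 2 ≠ 1 := by
    intro n hn h
    rw [← map_pow, map_eq_one_iff e e.injective] at h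
    have h1 : (n : H) ^ 2 = 1 := by simpa using congrArg Subtype.val h
    have := orderOf_dvd_of_pow_eq_one h1
    rw [hn] at this; norm_num at this
  have hne : ∀ m n : N, (m : H) ∉ Subgroup.zpowers (n : H) → e m ≠ e n ∧ e m ≠ (e n)⁻¹ := by
    intro m n hmn
    constructor
    · intro h
      exact hmn (e.injective h ▸ Subgroup.mem_zpowers _)
    · intro h
      rw [← map_inv] at h
      apply hmn
      rw [e.injective h]
      exact Subgroup.inv_mem _ (Subgroup.mem_zpowers _)
  obtain ⟨f1, f2, f3, f4, f5⟩ := q8_fact (e iN) (e jN) (e kN) (hsq _ hi) (hsq _ hj) (hsq _ hk)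
    (hne _ _ hji).1 (hne _ _ hji).2 (hne _ _ hki).1 (hne _ _ hki).2 (hne _ _ hkj).1 (hne _ _ hkj).2
  have g1 : (jN : H) * jN = (iN : H) ^ 2 := by
    rw [← map_mul, ← map_pow] at f1
    simpa using congrArg Subtype.val (e.injective f1)
  have g2 : (jN : H) * iN * (jN : H)⁻¹ = (iN : H)⁻¹ := by
    have f2' : e (jN * iN * jN⁻¹) = e (iN⁻¹) := by
      rw [map_mul, map_mul, map_inv, map_inv]; exact f2
    simpa using congrArg Subtype.val (e.injective f2')
  have g3 : (iN : H) * iN = (jN : H) ^ 2 := by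
    rw [← map_mul, ← map_pow] at f3
    simpa using congrArg Subtype.val (e.injective f3)
  have g4 : (iN : H) * jN * (iN : H)⁻¹ = (jN : H)⁻¹ := by
    have f4' : e (iN * jN * iN⁻¹) = e (jN⁻¹) := by
      rw [map_mul, map_mul, map_inv, map_inv]; exact f4
    simpa using congrArg Subtype.val (e.injective f4')
  rcases f5 with f5 | f5
  · have g5 : (kN : H) = iN * jN := by
      rw [← map_mul] at f5
      simpa using congrArg Subtype.val (e.injective f5)
    exact ⟨iN, jN, x, hi, g1, g2, hji, rfl, g5, hx⟩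
  · have g5 : (kN : H) = jN * iN := by
      rw [← map_mul] at f5
      simpa using congrArg Subtype.val (e.injective f5)
    refine ⟨jN, iN, x⁻¹, hj, g3, g4, hij, ?_, ?_, hxinv⟩
    · show x⁻¹ * (x * iN * x⁻¹) * (x⁻¹)⁻¹ = iN
      group
    · rw [← hkalt, g5]

end main

theorem q8_normal_cases {H : Type*} [Group H] [Finite H] (N : Subgroup H) (hN : N.Normal)
    (hQ : Nonempty (N ≃* QuaternionGroup 2))
    (hcard : Nat.card H = 24 ∨ Nat.card H = 48 ∨ Nat.card H = 120 ∨ Nat.card H = 528) :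
    (∃ M : Subgroup H, M.Normal ∧ M.index = 2) ∨
    (Nat.card H = 24 ∧ Nonempty (H ≃* Matrix.SpecialLinearGroup (Fin 2) (ZMod 3))) ∨
    (Nat.card H = 120 ∧
      Nonempty (H ≃* Matrix.SpecialLinearGroup (Fin 2) (ZMod 3) × Multiplicative (ZMod 5))) := by
  obtain ⟨e⟩ := hQ
  have hN8 := card_N N e
  have hquot := Subgroup.card_eq_card_quotient_mul_card_subgroup N
  rw [hN8] at hquot
  have : Fact (Nat.Prime 3) := ⟨Nat.prime_three⟩
  have : Fact (Nat.Prime 5) := ⟨by norm_num⟩
  have hSL : Nat.card (Matrix.SpecialLinearGroup (Fin 2) (ZMod 3)) = 24 := by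
    rw [Nat.card_eq_fintype_card, card_sl23]
  set C := Subgroup.centralizer (N : Set H) with hC
  rcases hcard with h | h | h | h
  · -- order 24
    obtain ⟨x, hx⟩ := exists_prime_orderOf_dvd_card' (G := H) 3 (by rw [h]; norm_num)
    by_cases hxC : x ∈ C
    · left
      apply caseA N e
      have h3 : 3 ∣ Nat.card C := hx ▸ Subgroup.orderOf_dvd_natCard C hxC
      obtain ⟨m, hm⟩ := h3
      have h1 := C.card_mul_index
      rw [hm, h] at h1
      exact ⟨m, by nlinarith⟩
    · right; left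
      refine ⟨h, ?_⟩
      obtain ⟨i, j, w, r1, r2, r3, r4, r5, r6, r7⟩ := caseB N e hx hxC
      obtain ⟨f, hf, -⟩ := exists_embedding i j w r1 r2 r3 r4 r5 r6 r7
      have hbij : Function.Bijective f :=
        (Nat.bijective_iff_injective_and_card f).2 ⟨hf, by rw [hSL, h]⟩
      exact ⟨(MulEquiv.ofBijective f hbij).symm⟩
  · left
    apply pullback_index_two N
    exact exists_index_two_of_two_odd (m := 3) (by omega) (by decide)
  · -- order 120
    obtain ⟨x, hx⟩ := exists_prime_orderOf_dvd_card' (G := H) 3 (by rw [h]; norm_num)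
    obtain ⟨P⟩ : Nonempty (Sylow 5 H) := inferInstance
    have hP5 : Nat.card (P : Subgroup H) = 5 := by
      obtain ⟨k, hk⟩ := IsPGroup.iff_card.mp P.isPGroup'
      have hk' : Nat.card (P : Subgroup H) = 5 ^ k := hk
      have hidx := (P : Subgroup H).card_mul_index
      have hnd := P.not_dvd_index
      rw [hk', h] at hidx
      rcases k with _ | _ | k
      · exfalso; apply hnd; rw [pow_zero, one_mul] at hidx; rw [hidx]; norm_num
      · rw [hk']; norm_num
      · exfalso
        have : (25 : ℕ) ∣ 120 := ⟨5 ^ k * (P : Subgroup H).index, by rw [← hidx]; ring⟩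
        norm_num at this
    have hPC : (P : Subgroup H) ≤ C := by
      intro g hg
      have hd : orderOf g ∣ 5 := hP5 ▸ Subgroup.orderOf_dvd_natCard _ hg
      apply mem_centralizer_of_coprime_six N e
      · intro h2; have := h2.trans hd; norm_num at this
      · intro h3; have := h3.trans hd; norm_num at this
    by_cases hxC : x ∈ C
    · left
      apply caseA N e
      have h3 : 3 ∣ Nat.card C := hx ▸ Subgroup.orderOf_dvd_natCard C hxC
      have h5 : 5 ∣ Nat.card C := hP5 ▸ Subgroup.card_dvd_of_le hPC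
      have h15 : 3 * 5 ∣ Nat.card C := Nat.Coprime.mul_dvd_of_dvd_of_dvd (by norm_num) h3 h5
      obtain ⟨m, hm⟩ := h15
      have h1 := C.card_mul_index
      rw [hm, h] at h1
      exact ⟨m, by nlinarith⟩
    · right; right
      refine ⟨h, ?_⟩
      obtain ⟨i, j, w, r1, r2, r3, r4, r5, r6, r7⟩ := caseB N e hx hxC
      obtain ⟨f, hf, hfform⟩ := exists_embedding i j w r1 r2 r3 r4 r5 r6 r7
      -- the Sylow 5-subgroup is normal
      have hcommNP : ∀ n ∈ N, ∀ g ∈ (P : Subgroup H), n * g = g * n := by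
        intro n hn g hg
        exact (Subgroup.mem_centralizer_iff.1 (hPC hg)) n hn
      have hNle : N ≤ Subgroup.normalizer ((P : Subgroup H) : Set H) := by
        rw [Subgroup.le_normalizer_iff]
        intro n hn g hg
        rw [hcommNP n hn g hg, mul_inv_cancel_right]; exact hg
      have h40 : 8 * 5 ∣ Nat.card (Subgroup.normalizer ((P : Subgroup H) : Set H)) :=
        Nat.Coprime.mul_dvd_of_dvd_of_dvd (by norm_num)
          (by rw [← hN8]; exact Subgroup.card_dvd_of_le hNle)
          (by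
            have := Subgroup.card_dvd_of_le (Subgroup.le_normalizer (H := (P : Subgroup H)))
            rwa [hP5] at this)
      have hPn : (P : Subgroup H).Normal := by
        rw [← Subgroup.normalizer_eq_top_iff, ← Subgroup.index_eq_one]
        obtain ⟨m, hm⟩ := h40
        have h1 := (Subgroup.normalizer ((P : Subgroup H) : Set H)).card_mul_index
        rw [hm, h] at h1
        have h2 : m * (Subgroup.normalizer ((P : Subgroup H) : Set H)).index = 3 := by nlinarith
        have h3 : (Subgroup.normalizer ((P : Subgroup H) : Set H)).index ∣ 3 := ⟨m, by rw [← h2]; ring⟩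
        have h4 := card_sylow_modEq_one 5 H
        rw [P.card_eq_index_normalizer] at h4
        rcases (Nat.dvd_prime Nat.prime_three).1 h3 with h5 | h5
        · exact h5
        · have h4' : (Subgroup.normalizer ((P : Subgroup H) : Set H)).index ≡ 1 [MOD 5] := h4
          rw [h5] at h4'; exact absurd h4' (by decide)
      have hcyc : IsCyclic (P : Subgroup H) := isCyclic_of_prime_card (p := 5) hP5
      have hwP : ∀ g ∈ (P : Subgroup H), w * g = g * w := by
        have h1 : orderOf (MulAut.conjNormal w : MulAut (P : Subgroup H)) ∣ 3 :=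
          r7 ▸ orderOf_map_dvd _ w
        have h2 : orderOf (MulAut.conjNormal w : MulAut (P : Subgroup H)) ∣ 4 := by
          have := orderOf_dvd_natCard (MulAut.conjNormal w : MulAut (P : Subgroup H))
          rw [IsCyclic.card_mulAut, hP5] at this
          exact this
        have h3 : (MulAut.conjNormal w : MulAut (P : Subgroup H)) = 1 :=
          orderOf_eq_one_iff.1 (Nat.eq_one_of_dvd_coprimes (by norm_num : Nat.Coprime 3 4) h1 h2)
        intro g hg
        exact ((Subgroup.mem_centralizer_iff.1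
          (mem_centralizer_of_conjNormal_eq_one (P : Subgroup H) h3)) g hg).symm
      have hidxN : N.index = 15 := by
        have := N.card_mul_index
        rw [hN8, h] at this
        omega
      let ε : Multiplicative (ZMod 5) ≃* (P : Subgroup H) :=
        mulEquivOfPrimeCardEq (p := 5) (by simp [Nat.card_eq_fintype_card]) hP5
      let g : Multiplicative (ZMod 5) →* H := (P : Subgroup H).subtype.comp ε.toMonoidHom
      have hgP : ∀ k, g k ∈ (P : Subgroup H) := fun k => (ε k).2
      have hcomm : ∀ s k, Commute (f s) (g k) := by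
        intro s k
        obtain ⟨u, z, hu, hs⟩ := hfform s
        rw [hs]
        have huN : u ∈ N := mem_of_card_quot N hidxN hu (by norm_num)
        exact Commute.mul_left (hcommNP u huN _ (hgP k))
          (Commute.zpow_left (hwP _ (hgP k)) z)
      let Ψ := f.noncommCoprod g hcomm
      have hΨinj : Function.Injective Ψ := by
        rw [injective_iff_map_eq_one]
        rintro ⟨s, k⟩ hsk
        have h1 : f s * g k = 1 := hsk
        have h2 : f s = (g k)⁻¹ := eq_inv_of_mul_eq_one_left h1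
        have h3 : (f s) ^ 24 = 1 := by
          rw [← map_pow, ← hSL, pow_card_eq_one', map_one]
        have h4 : (f s) ^ 5 = 1 := by
          rw [h2, inv_pow, inv_eq_one]
          have : (ε k) ^ 5 = 1 := by
            have h0 := pow_card_eq_one' (x := ε k)
            rwa [hP5] at h0
          have h00 : ((ε k : (P : Subgroup H)) : H) ^ 5 = 1 := by
            simpa using congrArg Subtype.val this
          exact h00
        have h5 : f s = 1 := orderOf_eq_one_iff.1 (Nat.eq_one_of_dvd_coprimes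
          (by norm_num : Nat.Coprime 24 5) (orderOf_dvd_of_pow_eq_one h3)
          (orderOf_dvd_of_pow_eq_one h4))
        have h6 : s = 1 := hf (by rw [h5, map_one])
        have h7 : g k = 1 := by rw [h5, one_mul] at h1; exact h1
        have h8 : ε k = 1 := Subtype.ext h7
        have h9 : k = 1 := ε.injective (by rw [h8, map_one])
        rw [h6, h9]; rfl
      have hbij : Function.Bijective Ψ :=
        (Nat.bijective_iff_injective_and_card Ψ).2 ⟨hΨinj, by
          rw [Nat.card_prod, hSL, h]; simp [Nat.card_eq_fintype_card]⟩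
      exact ⟨(MulEquiv.ofBijective Ψ hbij).symm⟩
  · left
    apply pullback_index_two N
    exact exists_index_two_of_two_odd (m := 33) (by omega) (by decide)

end Cfsg.Agent.Lib.Helper24.Q8Cases
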