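import Mathlib
import Cfsg.Prelude.Def_LieRecognition

set_option autoImplicit false

namespace Cfsg.Agent.Lib.Helper24

open MulAction
open scoped Pointwise

variable {G Ω : Type*} [Group G] [MulAction G Ω] {a : Ω} {t : G} {Q : Subgroup G}

theorem ta_ne (hS : Cfsg.IsRankOneSetup G Ω a t Q) : t • a ≠ a :=
  fun h => hS.not_mem (mem_stabilizer_iff.mpr h)

theorem t_inv (hS : Cfsg.IsRankOneSetup G Ω a t Q) : t⁻¹ = t :=
  inv_eq_of_mul_eq_one_left hS.mul_self

theorem tta (hS : Cfsg.IsRankOneSetup G Ω a t Q) : t • t • a = a := by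
  rw [smul_smul, hS.mul_self, one_smul]

theorem two_trans (hS : Cfsg.IsRankOneSetup G Ω a t Q) {b c d e : Ω} (h1 : b ≠ c) (h2 : d ≠ e) :
    ∃ g : G, g • b = d ∧ g • c = e :=
  MulAction.is_two_pretransitive_iff.mp hS.two_transitive h1 h2

theorem exists_ne_pt (hS : Cfsg.IsRankOneSetup G Ω a t Q) (b : Ω) : ∃ c : Ω, b ≠ c := by
  by_cases h : b = a
  · exact ⟨t • a, by rw [h]; exact (ta_ne hS).symm⟩
  · exact ⟨a, h⟩

theorem trans1 (hS : Cfsg.IsRankOneSetup G Ω a t Q) (b c : Ω) : ∃ g : G, g • b = c := by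
  obtain ⟨b', hb⟩ := exists_ne_pt hS b
  obtain ⟨c', hc⟩ := exists_ne_pt hS c
  obtain ⟨g, hg, _⟩ := two_trans hS hb hc
  exact ⟨g, hg⟩

theorem stab_le_normalizer (hS : Cfsg.IsRankOneSetup G Ω a t Q) :
    stabilizer G a ≤ Subgroup.normalizer (Q : Set G) := by
  intro h hh
  rw [Subgroup.mem_normalizer_iff]
  intro x
  constructor
  · intro hx
    exact hS.conj_mem h hh x hx
  · intro hx
    have := hS.conj_mem h⁻¹ (inv_mem hh) _ hx
    simpa [mul_assoc] using this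

/-- `G_a = Q D` elementwise. -/
theorem exists_mul (hS : Cfsg.IsRankOneSetup G Ω a t Q) {h : G} (hh : h ∈ stabilizer G a) :
    ∃ x ∈ Q, ∃ d ∈ stabilizer G a ⊓ stabilizer G (t • a), h = x * d := by
  have h1 : (↑(Q ⊔ (stabilizer G a ⊓ stabilizer G (t • a))) : Set G)
      = (Q : Set G) * ((stabilizer G a ⊓ stabilizer G (t • a) : Subgroup G) : Set G) :=
    Subgroup.coe_mul_of_right_le_normalizer_left _ _ (inf_le_left.trans (stab_le_normalizer hS))
  rw [hS.sup_eq] at h1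
  have h2 : h ∈ (stabilizer G a : Set G) := hh
  rw [h1] at h2
  obtain ⟨x, hx, d, hd, rfl⟩ := h2
  exact ⟨x, hx, d, hd, rfl⟩

/-- `Q` is transitive on the points other than `a`. -/
theorem Q_trans (hS : Cfsg.IsRankOneSetup G Ω a t Q) {c : Ω} (hc : c ≠ a) :
    ∃ x ∈ Q, x • (t • a) = c := by
  obtain ⟨g, hg1, hg2⟩ := two_trans hS (ta_ne hS).symm hc.symm
  obtain ⟨x, hx, d, hd, rfl⟩ := exists_mul hS (mem_stabilizer_iff.mpr hg1)
  refine ⟨x, hx, ?_⟩
  have : d • (t • a) = t • a := mem_stabilizer_iff.mp hd.2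
  rw [mul_smul, this] at hg2
  exact hg2

/-- A non-identity element of `Q` fixes only `a`. -/
theorem Q_fix (hS : Cfsg.IsRankOneSetup G Ω a t Q) {x : G} (hx : x ∈ Q) {c : Ω} (hc : x • c = c)
    (hca : c ≠ a) : x = 1 := by
  obtain ⟨y, hy, rfl⟩ := Q_trans hS hca
  have h1 : y⁻¹ * x * y ∈ Q ⊓ stabilizer G (t • a) := by
    refine Subgroup.mem_inf.mpr ⟨mul_mem (mul_mem (inv_mem hy) hx) hy, ?_⟩
    rw [mem_stabilizer_iff, mul_smul, mul_smul, hc, inv_smul_smul]
  rw [hS.inf_eq_bot, Subgroup.mem_bot] at h1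
  have : x = y * (y⁻¹ * x * y) * y⁻¹ := by group
  rw [this, h1]; group

theorem Q_fix' (hS : Cfsg.IsRankOneSetup G Ω a t Q) {x : G} (hx : x ∈ Q) (hx1 : x ≠ 1) {c : Ω}
    (hc : x • c = c) : c = a := by
  by_contra h
  exact hx1 (Q_fix hS hx hc h)

theorem Q_smul_a (hS : Cfsg.IsRankOneSetup G Ω a t Q) {x : G} (hx : x ∈ Q) : x • a = a :=
  mem_stabilizer_iff.mp (hS.le hx)

/-- Regularity of `Q` on the points other than `a`. -/
theorem Q_regular (hS : Cfsg.IsRankOneSetup G Ω a t Q) {b c : Ω} (hb : b ≠ a) (hc : c ≠ a) :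
    ∃ x ∈ Q, x • b = c ∧ ∀ y ∈ Q, y • b = c → y = x := by
  obtain ⟨x1, hx1, rfl⟩ := Q_trans hS hb
  obtain ⟨x2, hx2, rfl⟩ := Q_trans hS hc
  refine ⟨x2 * x1⁻¹, mul_mem hx2 (inv_mem hx1), by rw [mul_smul, inv_smul_smul], ?_⟩
  intro y hy hyb
  have h1 : (x2 * x1⁻¹)⁻¹ * y = 1 := by
    refine Q_fix hS (mul_mem (inv_mem (mul_mem hx2 (inv_mem hx1))) hy) (c := x1 • t • a) ?_ hb
    rw [mul_smul, hyb, inv_smul_eq_iff, mul_smul, inv_smul_smul]
  exact (inv_mul_eq_one.mp h1).symm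

/-! ### Generalities -/

section general

variable {M : Type*} [Group M]

theorem eq_one_of_sq_of_odd {D : Subgroup M} (hodd : Odd (Nat.card D)) {d : M} (hd : d ∈ D)
    (h : d * d = 1) : d = 1 := by
  have h1 : orderOf d ∣ 2 := orderOf_dvd_of_pow_eq_one (by rw [pow_two, h])
  have h2 : orderOf d ∣ Nat.card D := Subgroup.orderOf_dvd_natCard D hd
  have h3 : Nat.Coprime 2 (Nat.card D) := (Nat.coprime_two_left).mpr hodd
  have h4 : orderOf d ∣ 1 := by
    have := Nat.dvd_gcd h1 h2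
    rwa [h3] at this
  exact orderOf_eq_one_iff.mp (Nat.dvd_one.mp h4)

theorem conj_pow_inv {u v : M} (hu : u * u = 1) (hv : v * v = 1) (k : ℕ) :
    u * (u * v) ^ k * u = ((u * v) ^ k)⁻¹ := by
  have hui : u⁻¹ = u := inv_eq_of_mul_eq_one_left hu
  have hvi : v⁻¹ = v := inv_eq_of_mul_eq_one_left hv
  have h1 : u * (u * v) ^ k * u⁻¹ = (u * (u * v) * u⁻¹) ^ k := (conj_pow).symm
  rw [hui] at h1
  rw [h1, ← inv_pow]
  congr 1
  rw [mul_inv_rev, hui, hvi, ← mul_assoc, hu, one_mul]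

theorem conj_pow_inv' {u v : M} (hu : u * u = 1) (hv : v * v = 1) (k : ℕ) :
    v * (u * v) ^ k * v = ((u * v) ^ k)⁻¹ := by
  have hui : u⁻¹ = u := inv_eq_of_mul_eq_one_left hu
  have hvi : v⁻¹ = v := inv_eq_of_mul_eq_one_left hv
  have h1 : v * (u * v) ^ k * v⁻¹ = (v * (u * v) * v⁻¹) ^ k := (conj_pow).symm
  rw [hvi] at h1
  rw [h1, ← inv_pow]
  congr 1
  rw [mul_inv_rev, hui, hvi, mul_assoc, mul_assoc, hv, mul_one]

/-- Two involutions whose product has odd order are conjugate by an involution of the dihedral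
group they generate. -/
theorem dihedral_conj {u v : M} (hu : u * u = 1) (hv : v * v = 1) (hodd : Odd (orderOf (u * v))) :
    ∃ w : M, w * w = 1 ∧ w * u * w = v ∧ ∀ e : M, e * u = u * e → e * v = v * e → e * w = w * e := by
  obtain ⟨k, hk⟩ := hodd
  have hui : u⁻¹ = u := inv_eq_of_mul_eq_one_left hu
  have hvi : v⁻¹ = v := inv_eq_of_mul_eq_one_left hv
  have h1 := conj_pow_inv hu hv k
  have h2 : (u * v) ^ k * (u * v) ^ k * (u * v) = 1 := by
    rw [← pow_add, ← pow_succ, ← two_mul, ← hk, pow_orderOf_eq_one]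
  have h3 : u * (u * v) ^ k = ((u * v) ^ k)⁻¹ * u := by
    rw [← h1, mul_assoc, mul_assoc, hu, mul_one]
  refine ⟨(u * v) ^ k * u, ?_, ?_, ?_⟩
  · rw [mul_assoc, ← mul_assoc u, h1, mul_inv_cancel]
  · have : (u * v) ^ k * u * u * ((u * v) ^ k * u) = (u * v) ^ k * (u * v) ^ k * u := by
      rw [mul_assoc ((u * v) ^ k) u u, hu, mul_one, mul_assoc]
    rw [this]
    have h4 : (u * v) ^ k * (u * v) ^ k = (u * v)⁻¹ := eq_inv_of_mul_eq_one_left h2
    rw [h4, mul_inv_rev, hui, hvi, mul_assoc, hu, mul_one]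
  · intro e he1 he2
    have h5 : Commute e (u * v) := (show Commute e u from he1).mul_right he2
    exact (h5.pow_right k).mul_right he1

end general

/-! ### Counting -/

/-- The bijection `Option Q ≃ Ω`. -/
theorem optionQ_bij (hS : Cfsg.IsRankOneSetup G Ω a t Q) :
    Function.Bijective (fun o : Option Q => match o with
      | none => a
      | some x => (x : G) • (t • a)) := by
  constructor
  · rintro (_ | x) (_ | y) h
    · rfl
    · exfalso
      have h' : a = (y : G) • t • a := h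
      have : (y : G) • a = (y : G) • t • a := by rw [Q_smul_a hS y.2]; exact h'
      exact ta_ne hS (smul_left_cancel _ this).symm
    · exfalso
      have h' : (x : G) • t • a = a := h
      have : (x : G) • t • a = (x : G) • a := by rw [Q_smul_a hS x.2]; exact h'
      exact ta_ne hS (smul_left_cancel _ this)
    · have h' : (x : G) • t • a = (y : G) • t • a := h
      have h1 : (y : G)⁻¹ * x = 1 := by
        refine Q_fix hS (mul_mem (inv_mem y.2) x.2) (c := t • a) ?_ (ta_ne hS)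
        rw [mul_smul, h', inv_smul_smul]
      have : (x : G) = y := (inv_mul_eq_one.mp h1).symm
      exact congrArg some (Subtype.ext this)
  · intro c
    by_cases hc : c = a
    · exact ⟨none, hc.symm⟩
    · obtain ⟨x, hx, hxc⟩ := Q_trans hS hc
      exact ⟨some ⟨x, hx⟩, hxc⟩

theorem finite_Omega [Finite G] (hS : Cfsg.IsRankOneSetup G Ω a t Q) : Finite Ω :=
  Finite.of_surjective _ (optionQ_bij hS).2

theorem card_Omega [Finite G] (hS : Cfsg.IsRankOneSetup G Ω a t Q) :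
    Nat.card Ω = Nat.card Q + 1 := by
  rw [← Nat.card_congr (Equiv.ofBijective _ (optionQ_bij hS)), Finite.card_option]

theorem odd_card_Omega [Finite G] (hS : Cfsg.IsRankOneSetup G Ω a t Q) : Odd (Nat.card Ω) := by
  rw [card_Omega hS]; exact hS.even_card.add_one

theorem isPretransitive (hS : Cfsg.IsRankOneSetup G Ω a t Q) : IsPretransitive G Ω :=
  ⟨fun b c => trans1 hS b c⟩

theorem card_stab [Finite G] (hS : Cfsg.IsRankOneSetup G Ω a t Q) :
    Nat.card (stabilizer G a) =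
      Nat.card Q * Nat.card ↥(stabilizer G a ⊓ stabilizer G (t • a)) := by
  rw [← Nat.card_prod]
  symm
  refine Nat.card_congr (Equiv.ofBijective
    (fun p : Q × ↥(stabilizer G a ⊓ stabilizer G (t • a)) =>
      (⟨(p.1 : G) * (p.2 : G), mul_mem (hS.le p.1.2) p.2.2.1⟩ : stabilizer G a)) ⟨?_, ?_⟩)
  · rintro ⟨⟨x, hx⟩, ⟨d, hd⟩⟩ ⟨⟨x', hx'⟩, ⟨d', hd'⟩⟩ h
    have h' : x * d = x' * d' := congrArg Subtype.val h
    have h1 : x'⁻¹ * x = d' * d⁻¹ := by
      rw [inv_mul_eq_iff_eq_mul, ← mul_assoc, ← h', mul_assoc, mul_inv_cancel, mul_one]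
    have h2 : x'⁻¹ * x ∈ Q ⊓ stabilizer G (t • a) := by
      refine Subgroup.mem_inf.mpr ⟨mul_mem (inv_mem hx') hx, ?_⟩
      rw [h1]; exact mul_mem hd'.2 (inv_mem hd.2)
    rw [hS.inf_eq_bot, Subgroup.mem_bot] at h2
    have h3 : x = x' := (inv_mul_eq_one.mp h2).symm
    subst h3
    have h4 : d = d' := mul_left_cancel h'
    subst h4
    rfl
  · rintro ⟨h, hh⟩
    obtain ⟨x, hx, d, hd, rfl⟩ := exists_mul hS hh
    exact ⟨(⟨x, hx⟩, ⟨d, hd⟩), rfl⟩

theorem card_G [Finite G] (hS : Cfsg.IsRankOneSetup G Ω a t Q) :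
    Nat.card G = Nat.card Q * Nat.card ↥(stabilizer G a ⊓ stabilizer G (t • a)) *
      (Nat.card Q + 1) := by
  have := isPretransitive hS
  rw [← card_stab hS, ← card_Omega hS, ← MulAction.index_stabilizer_of_transitive G a,
    Subgroup.card_mul_index]

/-! ### Involutions -/

theorem invol_mem_Q [Finite G] (hS : Cfsg.IsRankOneSetup G Ω a t Q) {s : G}
    (hs : s ∈ stabilizer G a) (h2 : s * s = 1) : s ∈ Q := by
  obtain ⟨x, hx, d, hd, rfl⟩ := exists_mul hS hs
  have h1 : x * (d * x * d⁻¹) * (d * d) = 1 := by rw [← h2]; group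
  have h3 : d * d = (x * (d * x * d⁻¹))⁻¹ := eq_inv_of_mul_eq_one_right h1
  have h4 : d * d ∈ Q ⊓ stabilizer G (t • a) := by
    refine Subgroup.mem_inf.mpr ⟨?_, mul_mem hd.2 hd.2⟩
    rw [h3]
    exact inv_mem (mul_mem hx (hS.conj_mem d hd.1 x hx))
  rw [hS.inf_eq_bot, Subgroup.mem_bot] at h4
  have h5 : d = 1 := eq_one_of_sq_of_odd hS.odd_card hd h4
  rw [h5, mul_one]; exact hx

theorem invol_fix_exists [Finite G] (hS : Cfsg.IsRankOneSetup G Ω a t Q) {u : G}
    (h2 : u * u = 1) : ∃ c : Ω, u • c = c := by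
  classical
  have := finite_Omega hS
  have := Fintype.ofFinite Ω
  have : Fact (Nat.Prime 2) := ⟨Nat.prime_two⟩
  have h1 : (MulAction.toEndHom u : Function.End Ω) ^ 2 ^ 1 = 1 := by
    rw [← map_pow, pow_one, pow_two, h2, map_one]
  have h3 := Equiv.Perm.card_fixedPoints_modEq (p := 2) (n := 1) h1
  have h4 : Odd (Fintype.card Ω) := by
    rw [← Nat.card_eq_fintype_card]; exact odd_card_Omega hS
  by_contra hcon
  have h5 : IsEmpty (Function.fixedPoints (MulAction.toEndHom u : Function.End Ω)) :=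
    ⟨fun c => hcon ⟨c.1, c.2⟩⟩
  simp only [Fintype.card_eq_zero] at h3
  have h6 : Fintype.card Ω % 2 = 0 := h3
  rw [Nat.odd_iff] at h4
  omega

theorem invol_fix_eq [Finite G] (hS : Cfsg.IsRankOneSetup G Ω a t Q) {u : G} (h1 : u ≠ 1)
    (h2 : u * u = 1) {c c' : Ω} (hc : u • c = c) (hc' : u • c' = c') : c = c' := by
  obtain ⟨g, hg⟩ := trans1 hS c a
  have h3 : g * u * g⁻¹ ∈ stabilizer G a := by
    rw [mem_stabilizer_iff, mul_smul, mul_smul, ← hg, inv_smul_smul, hc]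
  have h4 : g * u * g⁻¹ ∈ Q := invol_mem_Q hS h3 (by
    have : g * u * g⁻¹ * (g * u * g⁻¹) = g * (u * u) * g⁻¹ := by group
    rw [this, h2]; group)
  have h5 : g * u * g⁻¹ ≠ 1 := by
    intro h
    apply h1
    have : u = g⁻¹ * (g * u * g⁻¹) * g := by group
    rw [this, h]; group
  have h6 : g • c' = a := by
    refine Q_fix' hS h4 h5 ?_
    rw [mul_smul, mul_smul, inv_smul_smul, hc']
  exact smul_left_cancel g (hg.trans h6.symm)

/-- Two involutions with different fixed points have a product of odd order. -/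
theorem invol_mul_odd [Finite G] (hS : Cfsg.IsRankOneSetup G Ω a t Q) {u v : G} (hu1 : u ≠ 1)
    (hu2 : u * u = 1) (hv1 : v ≠ 1) (hv2 : v * v = 1) {c d : Ω} (hc : u • c = c) (hd : v • d = d)
    (hcd : c ≠ d) : Odd (orderOf (u * v)) := by
  by_contra hodd
  rw [Nat.not_odd_iff_even] at hodd
  obtain ⟨k, hk⟩ := hodd
  have hpos : 0 < orderOf (u * v) := orderOf_pos _
  have hz1 : (u * v) ^ k ≠ 1 := pow_ne_one_of_lt_orderOf (by omega) (by omega)
  have hz2 : (u * v) ^ k * (u * v) ^ k = 1 := by rw [← pow_add, ← hk, pow_orderOf_eq_one]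
  have hzi : ((u * v) ^ k)⁻¹ = (u * v) ^ k := inv_eq_of_mul_eq_one_left hz2
  obtain ⟨e, he⟩ := invol_fix_exists hS hz2
  have h1 : u * (u * v) ^ k * u = (u * v) ^ k := by rw [conj_pow_inv hu2 hv2, hzi]
  have h2 : v * (u * v) ^ k * v = (u * v) ^ k := by rw [conj_pow_inv' hu2 hv2, hzi]
  have h3 : (u * v) ^ k • (u • e) = u • e := by
    conv_lhs => rw [← h1]
    rw [mul_smul, mul_smul, smul_smul u u, hu2, one_smul, he]
  have h4 : (u * v) ^ k • (v • e) = v • e := by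
    conv_lhs => rw [← h2]
    rw [mul_smul, mul_smul, smul_smul v v, hv2, one_smul, he]
  have h5 : u • e = e := invol_fix_eq hS hz1 hz2 h3 he
  have h6 : v • e = e := invol_fix_eq hS hz1 hz2 h4 he
  exact hcd ((invol_fix_eq hS hu1 hu2 hc h5).trans (invol_fix_eq hS hv1 hv2 h6 hd))


theorem exists_invol_Q [Finite G] (hS : Cfsg.IsRankOneSetup G Ω a t Q) :
    ∃ s ∈ Q, s ≠ 1 ∧ s * s = 1 := by
  have : Fact (Nat.Prime 2) := ⟨Nat.prime_two⟩
  obtain ⟨x, hx⟩ := exists_prime_orderOf_dvd_card' (G := Q) 2 hS.even_card.two_dvd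
  refine ⟨x, x.2, ?_, ?_⟩
  · intro h
    have : x = 1 := Subtype.ext h
    rw [this, orderOf_one] at hx
    omega
  · have h1 : x ^ 2 = 1 := by rw [← hx, pow_orderOf_eq_one]
    have h2 : ((x ^ 2 : Q) : G) = 1 := by rw [h1]; rfl
    rw [← h2, pow_two]; rfl

/-- Transport of the set-up along conjugation. -/
theorem setup_conj (hS : Cfsg.IsRankOneSetup G Ω a t Q) (g : G) :
    Cfsg.IsRankOneSetup G Ω (g • a) (g * t * g⁻¹) (Q.map (MulAut.conj g).toMonoidHom) := by
  have hstab : ∀ c : Ω, stabilizer G (g • c) = (stabilizer G c).map (MulAut.conj g).toMonoidHom :=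
    fun c => stabilizer_smul_eq_stabilizer_map_conj g c
  have hta : (g * t * g⁻¹) • g • a = g • t • a := by
    rw [mul_smul, mul_smul, inv_smul_smul]
  have hinj : Function.Injective (MulAut.conj g).toMonoidHom := (MulAut.conj g).injective
  refine ⟨hS.two_transitive, ?_, ?_, ?_, ?_, ?_, ?_, ?_, ?_, ?_⟩
  · have : g * t * g⁻¹ * (g * t * g⁻¹) = g * (t * t) * g⁻¹ := by group
    rw [this, hS.mul_self]; group
  · intro h
    apply hS.ne_one
    have : t = g⁻¹ * (g * t * g⁻¹) * g := by group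
    rw [this, h]; group
  · intro h
    rw [mem_stabilizer_iff, hta] at h
    exact ta_ne hS (smul_left_cancel g h)
  · rw [hstab]; exact Subgroup.map_mono hS.le
  · rw [hstab]
    rintro _ ⟨h, hh, rfl⟩ _ ⟨x, hx, rfl⟩
    refine ⟨h * x * h⁻¹, hS.conj_mem h hh x hx, ?_⟩
    simp [mul_assoc]
  · rw [hta, hstab, ← Subgroup.map_inf _ _ _ hinj, hS.inf_eq_bot, Subgroup.map_bot]
  · rw [hta, hstab, hstab, ← Subgroup.map_inf _ _ _ hinj, ← Subgroup.map_sup, hS.sup_eq]
  · rw [Subgroup.card_map_of_injective hinj]; exact hS.even_card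
  · rw [hta, hstab, hstab, ← Subgroup.map_inf _ _ _ hinj, Subgroup.card_map_of_injective hinj]
    exact hS.odd_card


theorem conj_invol {M : Type*} [Group M] {u : M} (g : M) (h1 : u ≠ 1) (h2 : u * u = 1) :
    g * u * g⁻¹ ≠ 1 ∧ (g * u * g⁻¹) * (g * u * g⁻¹) = 1 := by
  constructor
  · intro h
    apply h1
    have : u = g⁻¹ * (g * u * g⁻¹) * g := by group
    rw [this, h]; group
  · have : g * u * g⁻¹ * (g * u * g⁻¹) = g * (u * u) * g⁻¹ := by group
    rw [this, h2]; group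

theorem invol_conj_of_ne [Finite G] (hS : Cfsg.IsRankOneSetup G Ω a t Q) {u v : G} (hu1 : u ≠ 1)
    (hu2 : u * u = 1) (hv1 : v ≠ 1) (hv2 : v * v = 1) {c d : Ω} (hc : u • c = c) (hd : v • d = d)
    (hcd : c ≠ d) : ∃ w : G, w * w = 1 ∧ w * u * w = v ∧
      ∀ e : G, e * u = u * e → e * v = v * e → e * w = w * e :=
  dihedral_conj hu2 hv2 (invol_mul_odd hS hu1 hu2 hv1 hv2 hc hd hcd)

theorem invol_conj [Finite G] (hS : Cfsg.IsRankOneSetup G Ω a t Q) {u v : G} (hu1 : u ≠ 1)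
    (hu2 : u * u = 1) (hv1 : v ≠ 1) (hv2 : v * v = 1) : ∃ g : G, g * u * g⁻¹ = v := by
  obtain ⟨c, hc⟩ := invol_fix_exists hS hu2
  obtain ⟨d, hd⟩ := invol_fix_exists hS hv2
  by_cases hcd : c = d
  · obtain ⟨e, he⟩ := exists_ne_pt hS c
    obtain ⟨h, hh⟩ := trans1 hS c e
    obtain ⟨hw1, hw2⟩ := conj_invol h hu1 hu2
    have hwe : (h * u * h⁻¹) • e = e := by
      rw [mul_smul, mul_smul, ← hh, inv_smul_smul, hc]
    obtain ⟨w, hww, hw, _⟩ := invol_conj_of_ne hS hw1 hw2 hv1 hv2 hwe hd (by rw [← hcd]; exact he.symm)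
    refine ⟨w * h, ?_⟩
    rw [← hw, mul_inv_rev, inv_eq_of_mul_eq_one_left hww]
    group
  · obtain ⟨w, hww, hw, _⟩ := invol_conj_of_ne hS hu1 hu2 hv1 hv2 hc hd hcd
    exact ⟨w, by rw [inv_eq_of_mul_eq_one_left hww, hw]⟩


end Cfsg.Agent.Lib.Helper24
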