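import Cfsg.Agent.Lib.Helper24.RankOne
import Cfsg.Agent.Lib.Helper24.OddInv

set_option autoImplicit false

namespace Cfsg.Agent.Lib.Helper24

open MulAction
open scoped Pointwise

variable {G Ω : Type*} [Group G] [MulAction G Ω] {a : Ω} {t : G} {Q : Subgroup G}

/-- An involution swapping `a` and `t • a` is `t * k` with `k` inverted by `t`. -/
theorem swap_invol_mem_K (hS : Cfsg.IsRankOneSetup G Ω a t Q) {w : G} (hww : w * w = 1)
    (hwa : w • a = t • a) :
    t * w ∈ Cfsg.invertedBy (stabilizer G a ⊓ stabilizer G (t • a)) t := by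
  have hti := t_inv hS
  have hwi : w⁻¹ = w := inv_eq_of_mul_eq_one_left hww
  have hwb : w • t • a = a := by rw [← hwa, smul_smul, hww, one_smul]
  refine ⟨Subgroup.mem_inf.mpr ⟨?_, ?_⟩, ?_⟩
  · rw [mem_stabilizer_iff, mul_smul, hwa, tta hS]
  · rw [mem_stabilizer_iff, mul_smul, hwb]
  · rw [mul_inv_rev, hwi, hti, ← mul_assoc, hS.mul_self, one_mul]

theorem K_mul_invol (hS : Cfsg.IsRankOneSetup G Ω a t Q) {k : G}
    (hk : k ∈ Cfsg.invertedBy (stabilizer G a ⊓ stabilizer G (t • a)) t) :
    (t * k) * (t * k) = 1 ∧ (t * k) • a = t • a ∧ (t * k) • t • a = a := by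
  have hti := t_inv hS
  have h1 := hk.2
  rw [hti] at h1
  refine ⟨?_, ?_, ?_⟩
  · rw [← mul_assoc, h1, inv_mul_cancel]
  · rw [mul_smul, mem_stabilizer_iff.mp (Subgroup.mem_inf.mp hk.1).1]
  · rw [mul_smul, mem_stabilizer_iff.mp (Subgroup.mem_inf.mp hk.1).2, tta hS]

/-- The elements of `D` inverted by `t` act simply transitively (as a set) on the involutions of
`G_a`. -/
theorem K_conj_existsUnique [Finite G] (hS : Cfsg.IsRankOneSetup G Ω a t Q) {s s' : G}
    (hs : s ∈ Cfsg.involutionsIn (stabilizer G a : Set G))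
    (hs' : s' ∈ Cfsg.involutionsIn (stabilizer G a : Set G)) :
    ∃! k : G, k ∈ Cfsg.invertedBy (stabilizer G a ⊓ stabilizer G (t • a)) t ∧
      k * s * k⁻¹ = s' := by
  have hti := t_inv hS
  obtain ⟨hsa, hs1, hs2⟩ := hs
  obtain ⟨hs'a, hs'1, hs'2⟩ := hs'
  have hsa' : s • a = a := mem_stabilizer_iff.mp hsa
  have hs'a' : s' • a = a := mem_stabilizer_iff.mp hs'a
  obtain ⟨hv1, hv2⟩ := conj_invol t hs'1 hs'2
  rw [hti] at hv1 hv2
  have hvb : (t * s' * t) • t • a = t • a := by
    rw [mul_smul, mul_smul, tta hS, hs'a']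
  obtain ⟨w, hww, hw, hcomm⟩ := invol_conj_of_ne hS hs1 hs2 hv1 hv2 hsa' hvb (ta_ne hS).symm
  have hwi : w⁻¹ = w := inv_eq_of_mul_eq_one_left hww
  have hwa : w • a = t • a := by
    refine invol_fix_eq hS hv1 hv2 ?_ hvb
    rw [← hw, mul_smul, mul_smul, smul_smul w w, hww, one_smul, hsa']
  have hwb : w • t • a = a := by rw [← hwa, smul_smul, hww, one_smul]
  have hw' : w * (t * s' * t) * w = s := by
    rw [← hw]
    have : w * (w * s * w) * w = (w * w) * s * (w * w) := by group
    rw [this, hww, one_mul, mul_one]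
  refine ⟨t * w, ⟨swap_invol_mem_K hS hww hwa, ?_⟩, ?_⟩
  · rw [mul_inv_rev, hwi, hti]
    have : t * w * s * (w * t) = t * (w * s * w) * t := by group
    rw [this, hw]
    have : t * (t * s' * t) * t = (t * t) * s' * (t * t) := by group
    rw [this, hS.mul_self, one_mul, mul_one]
  · rintro k ⟨hk, hks⟩
    obtain ⟨hu2, hua, hub⟩ := K_mul_invol hS hk
    have hui : (t * k)⁻¹ = t * k := inv_eq_of_mul_eq_one_left hu2
    have hus : (t * k) * s * (t * k) = t * s' * t := by
      have : (t * k) * s * (t * k) = (t * k) * s * (t * k)⁻¹ := by rw [hui]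
      rw [this, mul_inv_rev, hti, ← hks]; group
    have hus' : (t * k) * (t * s' * t) * (t * k) = s := by
      rw [← hus]
      have : t * k * (t * k * s * (t * k)) * (t * k) =
        ((t * k) * (t * k)) * s * ((t * k) * (t * k)) := by group
      rw [this, hu2, one_mul, mul_one]
    have heD : w * (t * k) ∈ stabilizer G a ⊓ stabilizer G (t • a) := by
      refine Subgroup.mem_inf.mpr ⟨?_, ?_⟩
      · rw [mem_stabilizer_iff, mul_smul, hua, hwb]
      · rw [mem_stabilizer_iff, mul_smul, hub, hwa]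
    have he1 : w * (t * k) * s = s * (w * (t * k)) := by
      have h1 : w * (t * k) * s = w * ((t * k) * s * (t * k)) * (t * k) := by
        have : w * ((t * k) * s * (t * k)) * (t * k) = w * (t * k) * s * ((t * k) * (t * k)) := by
          group
        rw [this, hu2, mul_one]
      rw [h1, hus]
      have h2 : w * (t * s' * t) = s * w := by
        rw [← hw']
        have : w * (t * s' * t) * w * w = w * (t * s' * t) * (w * w) := by group
        rw [this, hww, mul_one]
      rw [h2, mul_assoc]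
    have he2 : w * (t * k) * (t * s' * t) = (t * s' * t) * (w * (t * k)) := by
      have h1 : w * (t * k) * (t * s' * t) = w * ((t * k) * (t * s' * t) * (t * k)) * (t * k) := by
        have : w * ((t * k) * (t * s' * t) * (t * k)) * (t * k) =
            w * (t * k) * (t * s' * t) * ((t * k) * (t * k)) := by group
        rw [this, hu2, mul_one]
      rw [h1, hus']
      have h2 : w * s = (t * s' * t) * w := by
        rw [← hw]
        have : w * s * w * w = w * s * (w * w) := by group
        rw [this, hww, mul_one]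
      rw [h2, mul_assoc]
    have he3 := hcomm _ he1 he2
    have he4 : (w * (t * k)) * (w * (t * k)) = 1 := by
      have h1 : (w * (t * k)) * (w * (t * k)) = (w * (t * k) * w) * (t * k) := by group
      rw [h1, he3]
      have : w * (w * (t * k)) * (t * k) = (w * w) * ((t * k) * (t * k)) := by group
      rw [this, hww, hu2, one_mul]
    have he5 : w * (t * k) = 1 := eq_one_of_sq_of_odd hS.odd_card heD he4
    have he6 : t * k = w := by
      have : t * k = (w * w) * (t * k) := by rw [hww, one_mul]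
      rw [this, mul_assoc, he5, mul_one]
    rw [← he6, ← mul_assoc, hS.mul_self, one_mul]

theorem exists_invol_stab [Finite G] (hS : Cfsg.IsRankOneSetup G Ω a t Q) :
    ∃ s, s ∈ Cfsg.involutionsIn (stabilizer G a : Set G) := by
  obtain ⟨s, hs, hs1, hs2⟩ := exists_invol_Q hS
  exact ⟨s, hS.le hs, hs1, hs2⟩

theorem conj_mem_involutionsIn {s h : G}
    (hs : s ∈ Cfsg.involutionsIn (stabilizer G a : Set G)) (hh : h ∈ stabilizer G a) :
    h * s * h⁻¹ ∈ Cfsg.involutionsIn (stabilizer G a : Set G) := by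
  obtain ⟨h1, h2⟩ := conj_invol h hs.2.1 hs.2.2
  exact ⟨mul_mem (mul_mem hh hs.1) (inv_mem hh), h1, h2⟩

theorem card_K [Finite G] (hS : Cfsg.IsRankOneSetup G Ω a t Q) :
    Nat.card (Cfsg.invertedBy (stabilizer G a ⊓ stabilizer G (t • a)) t) =
      Nat.card (Cfsg.involutionsIn (stabilizer G a : Set G)) := by
  obtain ⟨s, hs⟩ := exists_invol_stab hS
  refine Nat.card_congr (Equiv.ofBijective
    (fun k : Cfsg.invertedBy (stabilizer G a ⊓ stabilizer G (t • a)) t =>
      (⟨(k : G) * s * (k : G)⁻¹, conj_mem_involutionsIn hs (Subgroup.mem_inf.mp k.2.1).1⟩ :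
        Cfsg.involutionsIn (stabilizer G a : Set G))) ⟨?_, ?_⟩)
  · rintro ⟨k, hk⟩ ⟨k', hk'⟩ h
    have h' : k * s * k⁻¹ = k' * s * k'⁻¹ := congrArg Subtype.val h
    obtain ⟨k0, -, huniq⟩ := K_conj_existsUnique hS hs
      (conj_mem_involutionsIn hs (Subgroup.mem_inf.mp hk'.1).1)
    exact Subtype.ext ((huniq k ⟨hk, h'⟩).trans (huniq k' ⟨hk', rfl⟩).symm)
  · rintro ⟨s', hs'⟩
    obtain ⟨k, ⟨hk, hks⟩, -⟩ := K_conj_existsUnique hS hs hs'
    exact ⟨⟨k, hk⟩, Subtype.ext hks⟩

end Cfsg.Agent.Lib.Helper24
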