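import Cfsg.Agent.Lib.Helper24.RankOne2

set_option autoImplicit false

namespace Cfsg.Agent.Lib.Helper24

open MulAction
open scoped Pointwise

variable {G Ω : Type*} [Group G] [MulAction G Ω] {a : Ω} {t : G} {Q : Subgroup G}

/-- `C_Q(X)` is transitive on the fixed points of `X` other than `a`. -/
theorem cent_Q_trans (hS : Cfsg.IsRankOneSetup G Ω a t Q) {X : Set G}
    (hX : X ⊆ (stabilizer G a : Set G)) {b c : Ω} (hb : b ≠ a) (hc : c ≠ a)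
    (hXb : ∀ x ∈ X, x • b = b) (hXc : ∀ x ∈ X, x • c = c) :
    ∃ y ∈ Subgroup.centralizer X ⊓ Q, y • b = c := by
  obtain ⟨y, hy, hyb, huniq⟩ := Q_regular hS hb hc
  refine ⟨y, Subgroup.mem_inf.mpr ⟨?_, hy⟩, hyb⟩
  rw [Subgroup.mem_centralizer_iff]
  intro x hx
  have h1 : x * y * x⁻¹ = y := by
    apply huniq _ (hS.conj_mem x (hX hx) y hy)
    rw [mul_smul, mul_smul, inv_smul_eq_iff.mpr (hXb x hx).symm, hyb, hXc x hx]
  exact mul_inv_eq_iff_eq_mul.mp h1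

theorem cent_smul_fixed {X : Set G} {g : G} (hg : g ∈ Subgroup.centralizer X) {p : Ω}
    (hp : ∀ x ∈ X, x • p = p) : ∀ x ∈ X, x • g • p = g • p := by
  intro x hx
  rw [smul_smul, Subgroup.mem_centralizer_iff.mp hg x hx, mul_smul, hp x hx]

section three

variable (hS : Cfsg.IsRankOneSetup G Ω a t Q) {X : Set G}
  (hX : X ⊆ ((stabilizer G a ⊓ stabilizer G (t • a) : Subgroup G) : Set G))
  (h3 : ∃ b c d : Ω, b ≠ c ∧ b ≠ d ∧ c ≠ d ∧ ∀ x ∈ X, x • b = b ∧ x • c = c ∧ x • d = d)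

include hS hX

theorem X_fix_a : ∀ x ∈ X, x • a = a :=
  fun x hx => mem_stabilizer_iff.mp (Subgroup.mem_inf.mp (hX hx)).1

theorem X_fix_b : ∀ x ∈ X, x • t • a = t • a :=
  fun x hx => mem_stabilizer_iff.mp (Subgroup.mem_inf.mp (hX hx)).2

theorem cent_trans_at_b {b c : Ω} (hb : b ≠ t • a) (hc : c ≠ t • a)
    (hXb : ∀ x ∈ X, x • b = b) (hXc : ∀ x ∈ X, x • c = c) :
    ∃ y ∈ Subgroup.centralizer X, y • b = c := by
  obtain ⟨y, hy, hyb⟩ := cent_Q_trans (setup_conj hS t) (X := X)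
    (fun x hx => (Subgroup.mem_inf.mp (hX hx)).2) hb hc hXb hXc
  exact ⟨y, (Subgroup.mem_inf.mp hy).1, hyb⟩

include h3

theorem exists_third : ∃ d : Ω, d ≠ a ∧ d ≠ t • a ∧ ∀ x ∈ X, x • d = d := by
  obtain ⟨b, c, d, hbc, hbd, hcd, hfix⟩ := h3
  by_cases h1 : b ≠ a ∧ b ≠ t • a
  · exact ⟨b, h1.1, h1.2, fun x hx => (hfix x hx).1⟩
  by_cases h2 : c ≠ a ∧ c ≠ t • a
  · exact ⟨c, h2.1, h2.2, fun x hx => (hfix x hx).2.1⟩
  refine ⟨d, ?_, ?_, fun x hx => (hfix x hx).2.2⟩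
  · rintro rfl
    by_cases hb : b = t • d
    · by_cases hc : c = t • d
      · exact hbc (hb.trans hc.symm)
      · exact h2 ⟨hcd, hc⟩
    · exact h1 ⟨hbd, hb⟩
  · rintro rfl
    by_cases hb : b = a
    · by_cases hc : c = a
      · exact hbc (hb.trans hc.symm)
      · exact h2 ⟨hc, hcd⟩
    · exact h1 ⟨hb, hbd⟩

theorem cent_to_a {p : Ω} (hp : ∀ x ∈ X, x • p = p) :
    ∃ g ∈ Subgroup.centralizer X, g • p = a := by
  have hXa := X_fix_a hS hX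
  have hXb := X_fix_b hS hX
  by_cases hpa : p = a
  · exact ⟨1, one_mem _, by rw [one_smul, hpa]⟩
  by_cases hpb : p = t • a
  · obtain ⟨d, hda, hdb, hXd⟩ := exists_third hS hX h3
    obtain ⟨y1, hy1, hy1b⟩ := cent_Q_trans hS (X := X)
      (fun x hx => (Subgroup.mem_inf.mp (hX hx)).1) (ta_ne hS) hda hXb hXd
    obtain ⟨y2, hy2, hy2d⟩ := cent_trans_at_b hS hX hdb (ta_ne hS).symm hXd hXa
    exact ⟨y2 * y1, mul_mem hy2 (Subgroup.mem_inf.mp hy1).1, by rw [mul_smul, hpb, hy1b, hy2d]⟩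
  · exact cent_trans_at_b hS hX hpb (ta_ne hS).symm hp hXa

theorem cent_two_trans {b₁ b₂ c₁ c₂ : Ω} (hb₁ : ∀ x ∈ X, x • b₁ = b₁) (hb₂ : ∀ x ∈ X, x • b₂ = b₂)
    (hc₁ : ∀ x ∈ X, x • c₁ = c₁) (hc₂ : ∀ x ∈ X, x • c₂ = c₂) (hb : b₁ ≠ b₂) (hc : c₁ ≠ c₂) :
    ∃ g ∈ Subgroup.centralizer X, g • b₁ = c₁ ∧ g • b₂ = c₂ := by
  obtain ⟨g1, hg1, hg1b⟩ := cent_to_a hS hX h3 hb₁
  obtain ⟨g2, hg2, hg2c⟩ := cent_to_a hS hX h3 hc₁
  have h1 : g1 • b₂ ≠ a := by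
    rw [← hg1b]; exact fun h => hb (smul_left_cancel g1 h).symm
  have h2 : g2 • c₂ ≠ a := by
    rw [← hg2c]; exact fun h => hc (smul_left_cancel g2 h).symm
  obtain ⟨y, hy, hyb⟩ := cent_Q_trans hS (X := X)
    (fun x hx => (Subgroup.mem_inf.mp (hX hx)).1) h1 h2 (cent_smul_fixed hg1 hb₂)
    (cent_smul_fixed hg2 hc₂)
  refine ⟨g2⁻¹ * y * g1, mul_mem (mul_mem (inv_mem hg2) (Subgroup.mem_inf.mp hy).1) hg1, ?_, ?_⟩
  · rw [mul_smul, mul_smul, hg1b, Q_smul_a hS (Subgroup.mem_inf.mp hy).2, inv_smul_eq_iff, hg2c]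
  · rw [mul_smul, mul_smul, hyb, inv_smul_smul]

/-- An involution of `C_G(X)` interchanging `a` and `t • a`. -/
theorem cent_swap_invol [Finite G] : ∃ u ∈ Subgroup.centralizer X, u * u = 1 ∧ u • a = t • a := by
  have hXa := X_fix_a hS hX
  have hXb := X_fix_b hS hX
  obtain ⟨g, hg, hga, hgb⟩ := cent_two_trans hS hX h3 hXa hXb hXb hXa (ta_ne hS).symm (ta_ne hS)
  have hggD : g * g ∈ stabilizer G a ⊓ stabilizer G (t • a) := by
    refine Subgroup.mem_inf.mpr ⟨?_, ?_⟩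
    · rw [mem_stabilizer_iff, mul_smul, hga, hgb]
    · rw [mem_stabilizer_iff, mul_smul, hgb, hga]
  obtain ⟨k, hk⟩ := hS.odd_card
  have h1 : (g * g) ^ (2 * k + 1) = 1 := by rw [← hk]; exact pow_card_sub hggD
  refine ⟨g ^ (2 * k + 1), pow_mem hg _, ?_, ?_⟩
  · rw [← h1, ← pow_two, ← pow_two, ← pow_mul, ← pow_mul, mul_comm]
  · have h2 : g ^ (2 * k + 1) = g * (g * g) ^ k := by
      rw [← pow_two, ← pow_mul, pow_succ']
    have h3 : (g * g) ^ k • a = a :=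
      mem_stabilizer_iff.mp (pow_mem (Subgroup.mem_inf.mp hggD).1 k)
    rw [h2, mul_smul, h3, hga]

theorem cent_Q_invol [Finite G] : ∃ s ∈ Subgroup.centralizer X ⊓ Q, s ≠ 1 ∧ s * s = 1 := by
  obtain ⟨u, hu, hu2, hua⟩ := cent_swap_invol hS hX h3
  have hu1 : u ≠ 1 := by
    rintro rfl
    rw [one_smul] at hua
    exact ta_ne hS hua.symm
  obtain ⟨e, he⟩ := invol_fix_exists hS hu2
  have hXe : ∀ x ∈ X, x • e = e := by
    intro x hx
    refine invol_fix_eq hS hu1 hu2 ?_ he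
    rw [smul_smul, ← Subgroup.mem_centralizer_iff.mp hu x hx, mul_smul, he]
  obtain ⟨h, hh, hhe⟩ := cent_to_a hS hX h3 hXe
  obtain ⟨hs1, hs2⟩ := conj_invol h hu1 hu2
  refine ⟨h * u * h⁻¹, Subgroup.mem_inf.mpr ⟨mul_mem (mul_mem hh hu) (inv_mem hh), ?_⟩, hs1, hs2⟩
  refine invol_mem_Q hS ?_ hs2
  rw [mem_stabilizer_iff, mul_smul, mul_smul, ← hhe, inv_smul_smul, he]

theorem even_card_cent_Q [Finite G] : Even (Nat.card ↥(Subgroup.centralizer X ⊓ Q)) := by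
  obtain ⟨s, hs, hs1, hs2⟩ := cent_Q_invol hS hX h3
  have h1 : orderOf s = 2 := orderOf_eq_prime (by rw [pow_two, hs2]) hs1
  rw [even_iff_two_dvd, ← h1]
  exact Subgroup.orderOf_dvd_natCard _ hs

omit h3 in
theorem cent_stab_eq :
    (Subgroup.centralizer X ⊓ Q) ⊔
      (Subgroup.centralizer X ⊓ (stabilizer G a ⊓ stabilizer G (t • a))) =
      Subgroup.centralizer X ⊓ stabilizer G a := by
  have hXb := X_fix_b hS hX
  apply le_antisymm
  · exact sup_le (inf_le_inf_left _ hS.le) (inf_le_inf_left _ inf_le_left)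
  · intro h hh
    obtain ⟨hhC, hha⟩ := Subgroup.mem_inf.mp hh
    have hha' : h • a = a := mem_stabilizer_iff.mp hha
    have h1 : h • t • a ≠ a := by
      intro h2
      rw [← hha'] at h2
      exact ta_ne hS (by
        have := smul_left_cancel h h2
        rw [hha'] at this
        exact this)
    obtain ⟨y, hy, hyb⟩ := cent_Q_trans hS (X := X)
      (fun x hx => (Subgroup.mem_inf.mp (hX hx)).1) (ta_ne hS) h1 hXb (cent_smul_fixed hhC hXb)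
    have h2 : h = y * (y⁻¹ * h) := by group
    rw [h2]
    refine Subgroup.mul_mem_sup hy (Subgroup.mem_inf.mpr
      ⟨mul_mem (inv_mem (Subgroup.mem_inf.mp hy).1) hhC, Subgroup.mem_inf.mpr ⟨?_, ?_⟩⟩)
    · exact mul_mem (inv_mem (hS.le (Subgroup.mem_inf.mp hy).2)) hha
    · rw [mem_stabilizer_iff, mul_smul, inv_smul_eq_iff, hyb]

end three

end Cfsg.Agent.Lib.Helper24
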