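import Cfsg.Agent.Lib.Helper24.RankOne3

set_option autoImplicit false

namespace Cfsg.Agent.Lib.Helper24

open MulAction
open scoped Pointwise

variable {G Ω : Type*} [Group G] [MulAction G Ω] {a : Ω} {t : G} {Q : Subgroup G}

/-- If `g` inverts `x` and `g` has odd order then `x * x = 1`. -/
theorem sq_eq_one_of_inverted_by_odd {M : Type*} [Group M] {g x : M} (hinv : g * x * g⁻¹ = x⁻¹)
    (hodd : Odd (orderOf g)) : x * x = 1 := by
  have hsq : Commute (g * g) x := by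
    have h1 : g * g * x * (g * g)⁻¹ = g * (g * x * g⁻¹) * g⁻¹ := by group
    have h2 : g * x⁻¹ * g⁻¹ = x := by rw [← conj_inv, hinv, inv_inv]
    rw [hinv, h2] at h1
    exact mul_inv_eq_iff_eq_mul.mp h1
  obtain ⟨k, hk⟩ := hodd
  have h4 : g ^ (2 * k + 1) = 1 := by rw [← hk, pow_orderOf_eq_one]
  have h5 : g ^ (2 * k + 1) = (g * g) ^ k * g := by rw [← pow_two, ← pow_mul, pow_succ]
  have h6 : (g * g) ^ k * g * x * ((g * g) ^ k * g)⁻¹ = x⁻¹ := by
    have h7 : (g * g) ^ k * g * x * ((g * g) ^ k * g)⁻¹ =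
        (g * g) ^ k * (g * x * g⁻¹) * ((g * g) ^ k)⁻¹ := by group
    rw [h7, hinv]
    have h8 : Commute ((g * g) ^ k) x⁻¹ := (hsq.pow_left k).inv_right
    rw [h8.eq, mul_assoc, mul_inv_cancel, mul_one]
  rw [← h5, h4] at h6
  simp only [one_mul, inv_one, mul_one] at h6
  nth_rewrite 1 [h6]
  exact inv_mul_cancel x

/-- Non-identity elements of `D` inverted by `t` act fixed-point-freely on `Q`. -/
theorem K_fpf [Finite G] (hS : Cfsg.IsRankOneSetup G Ω a t Q) {x : G}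
    (hx : x ∈ Cfsg.invertedBy (stabilizer G a ⊓ stabilizer G (t • a)) t) (hx1 : x ≠ 1)
    {y : G} (hyQ : y ∈ Q) (hyx : x * y = y * x) : y = 1 := by
  by_contra hy1
  have hxa : x • a = a := mem_stabilizer_iff.mp (Subgroup.mem_inf.mp hx.1).1
  have hxb : x • t • a = t • a := mem_stabilizer_iff.mp (Subgroup.mem_inf.mp hx.1).2
  have hX : ({x} : Set G) ⊆
      ((stabilizer G a ⊓ stabilizer G (t • a) : Subgroup G) : Set G) := by
    rintro _ rfl
    exact hx.1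
  have hyb1 : y • t • a ≠ a := by
    intro h
    have h' : y • t • a = y • a := by rw [Q_smul_a hS hyQ]; exact h
    exact ta_ne hS (smul_left_cancel y h')
  have hyb2 : y • t • a ≠ t • a := fun h => hy1 (Q_fix hS hyQ h (ta_ne hS))
  have h3 : ∃ b c d : Ω, b ≠ c ∧ b ≠ d ∧ c ≠ d ∧
      ∀ z ∈ ({x} : Set G), z • b = b ∧ z • c = c ∧ z • d = d := by
    refine ⟨a, t • a, y • t • a, (ta_ne hS).symm, hyb1.symm, hyb2.symm, ?_⟩
    rintro _ rfl
    refine ⟨hxa, hxb, ?_⟩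
    rw [smul_smul, hyx, mul_smul, hxb]
  obtain ⟨s, hs, hs1, hs2⟩ := cent_Q_invol hS hX h3
  obtain ⟨hsC, hsQ⟩ := Subgroup.mem_inf.mp hs
  have hsx : x * s = s * x := Subgroup.mem_centralizer_iff.mp hsC x rfl
  obtain ⟨c, hc⟩ := invol_fix_exists hS hS.mul_self
  have hca : a ≠ c := by
    intro h
    apply hS.not_mem
    rw [mem_stabilizer_iff, h, hc]
  have hodd := invol_mul_odd hS hs1 hs2 hS.ne_one hS.mul_self (Q_smul_a hS hsQ) hc hca
  have hinv : (s * t) * x * (s * t)⁻¹ = x⁻¹ := by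
    have h1 : (s * t) * x * (s * t)⁻¹ = s * (t * x * t⁻¹) * s⁻¹ := by group
    rw [h1, hx.2]
    have h2 : s * x⁻¹ = x⁻¹ * s := by
      rw [eq_inv_mul_iff_mul_eq, ← mul_assoc, hsx, mul_assoc, mul_inv_cancel, mul_one]
    rw [h2, mul_assoc, mul_inv_cancel, mul_one]
  exact hx1 (eq_one_of_sq_of_odd hS.odd_card hx.1 (sq_eq_one_of_inverted_by_odd hinv hodd))

/-- The Lang-type map of a fixed-point-free element is onto. -/
theorem lang_surj [Finite G] (hS : Cfsg.IsRankOneSetup G Ω a t Q) {x : G}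
    (hxa : x ∈ stabilizer G a) (hfpf : ∀ y ∈ Q, x * y = y * x → y = 1) {q0 : G} (hq0 : q0 ∈ Q) :
    ∃ q ∈ Q, q0 = x * q⁻¹ * x⁻¹ * q := by
  have hinj : Function.Injective (fun q : Q =>
      (⟨x * (q : G)⁻¹ * x⁻¹ * q, mul_mem (hS.conj_mem x hxa _ (inv_mem q.2)) q.2⟩ : Q)) := by
    rintro ⟨q, hq⟩ ⟨q', hq'⟩ h
    have h' : x * q⁻¹ * x⁻¹ * q = x * q'⁻¹ * x⁻¹ * q' := congrArg Subtype.val h
    have h1 : x * (q' * q⁻¹) = (q' * q⁻¹) * x := by
      have h2 : x * (q' * q⁻¹) * x⁻¹ = q' * q⁻¹ := by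
        have e1 : x * (q' * q⁻¹) * x⁻¹ = (x * q'⁻¹ * x⁻¹)⁻¹ * (x * q⁻¹ * x⁻¹ * q) * q⁻¹ := by group
        rw [e1, h']; group
      exact mul_inv_eq_iff_eq_mul.mp h2
    have h3 := hfpf _ (mul_mem hq' (inv_mem hq)) h1
    exact Subtype.ext (mul_inv_eq_one.mp h3).symm
  obtain ⟨q, hq⟩ := (Finite.injective_iff_surjective.mp hinj) ⟨q0, hq0⟩
  exact ⟨q, q.2, (congrArg Subtype.val hq).symm⟩

/-- The involutions of `G_a` are central in `Q`. -/
theorem invol_central [Finite G] (hS : Cfsg.IsRankOneSetup G Ω a t Q) {s : G}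
    (hs : s ∈ Cfsg.involutionsIn (stabilizer G a : Set G)) {y : G} (hy : y ∈ Q) :
    s * y = y * s := by
  have hs' := conj_mem_involutionsIn hs (hS.le hy)
  obtain ⟨k, ⟨hk, hks⟩, -⟩ := K_conj_existsUnique hS hs hs'
  by_cases hk1 : k = 1
  · rw [hk1] at hks
    simp only [one_mul, inv_one, mul_one] at hks
    exact (mul_inv_eq_iff_eq_mul.mp hks.symm).symm
  · exfalso
    have hka := (Subgroup.mem_inf.mp hk.1).1
    obtain ⟨q, hq, hqe⟩ := lang_surj hS hka (fun y hy h => K_fpf hS hk hk1 hy h) hy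
    have hsQ : s ∈ Q := invol_mem_Q hS hs.1 hs.2.2
    have h1 : k * (q * s * q⁻¹) = (q * s * q⁻¹) * k := by
      have h2 : k * (q * s * q⁻¹) * k⁻¹ = q * s * q⁻¹ := by
        have e1 : k * (q * s * q⁻¹) * k⁻¹ = (k * q * k⁻¹) * (k * s * k⁻¹) * (k * q * k⁻¹)⁻¹ := by
          group
        rw [e1, hks, hqe]; group
      exact mul_inv_eq_iff_eq_mul.mp h2
    have h3 := K_fpf hS hk hk1 (mul_mem (mul_mem hq hsQ) (inv_mem hq)) h1
    exact (conj_invol q hs.2.1 hs.2.2).1 h3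

end Cfsg.Agent.Lib.Helper24
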