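import Cfsg.Agent.Lib.Helper38.Z32Defs

set_option autoImplicit false
set_option linter.unusedSectionVars false
set_option linter.unusedVariables false

/-! S0732 ladder, rung R1. -/

namespace Cfsg.Agent.Lib.Helper24.Z32

open OnePoint Cfsg.Agent.Lib.Helper38.Z32

/-- the normal Sylow `p`-subgroup of a point stabiliser -/
theorem exists_z {α : Type*} [Fintype α] [DecidableEq α] {p d : ℕ} [Fact p.Prime]
    (hα : Fintype.card α = p + 1) (G : Subgroup (Equiv.Perm α)) [MulAction.IsPretransitive G α]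
    (hG : Nat.card G = (p + 1) * p * d) (hd : d < p) (a : α) :
    Nat.card (MulAction.stabilizer G a) = p * d ∧
    ∃ z : G, z • a = a ∧ orderOf z = p ∧
      (∀ g : G, g • a = a → g * z * g⁻¹ ∈ Subgroup.zpowers z) ∧
      (∀ b c : α, b ≠ a → c ≠ a → ∃ i : ℕ, z ^ i • b = c) := by
  have hp : p.Prime := Fact.out
  have hd0 : 0 < d := by
    rcases Nat.eq_zero_or_pos d with h | h
    · rw [h, mul_zero] at hG
      exact absurd hG Nat.card_pos.ne'
    · exact h
  set S := MulAction.stabilizer G a with hS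
  have hidx : S.index = p + 1 := by
    rw [MulAction.index_stabilizer_of_transitive, Nat.card_eq_fintype_card, hα]
  have hcardS : Nat.card S = p * d := by
    have h1 := S.card_mul_index
    rw [hidx, hG] at h1
    have : Nat.card S * (p + 1) = (p * d) * (p + 1) := by rw [h1]; ring
    exact Nat.eq_of_mul_eq_mul_right (Nat.succ_pos p) this
  refine ⟨hcardS, ?_⟩
  have hpd : ¬ p ∣ d := fun h => absurd (Nat.le_of_dvd hd0 h) (not_le.mpr hd)
  let P : Sylow p S := default
  have hcardP : Nat.card P = p := by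
    rw [Sylow.card_eq_multiplicity, hcardS, Nat.factorization_mul hp.ne_zero hd0.ne']
    simp [hp.factorization_self, Nat.factorization_eq_zero_of_not_dvd hpd]
  have hPidx : (P : Subgroup S).index = d := by
    have h1 := (P : Subgroup S).card_mul_index
    rw [hcardP, hcardS] at h1
    exact Nat.eq_of_mul_eq_mul_left hp.pos h1
  have hone : Nat.card (Sylow p S) = 1 := by
    have h1 := card_sylow_modEq_one p S
    have h2 := P.card_dvd_index
    rw [hPidx] at h2
    have h3 : Nat.card (Sylow p S) < p := lt_of_le_of_lt (Nat.le_of_dvd hd0 h2) hd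
    have h4 : Nat.card (Sylow p S) % p = 1 % p := h1
    rw [Nat.mod_eq_of_lt h3, Nat.mod_eq_of_lt hp.one_lt] at h4
    exact h4
  have hsub : Subsingleton (Sylow p S) := (Nat.card_eq_one_iff_unique.mp hone).1
  have hPn : (P : Subgroup S).Normal := Sylow.normal_of_subsingleton P
  have hPnt : Nontrivial P := by
    rw [← Finite.one_lt_card_iff_nontrivial, hcardP]; exact hp.one_lt
  obtain ⟨z0, hz0⟩ := exists_ne (1 : P)
  have hztop : Subgroup.zpowers z0 = ⊤ := zpowers_eq_top_of_prime_card hcardP hz0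
  set z : G := ((z0 : S) : G) with hz
  have hz1 : z ≠ 1 := by
    intro e
    apply hz0
    apply Subtype.ext
    apply Subtype.ext
    exact e
  have hord : orderOf z = p := by
    have h1 : orderOf z0 = p := by
      rw [← Nat.card_zpowers, hztop, Subgroup.card_top]; exact hcardP
    rw [hz, Subgroup.orderOf_coe, Subgroup.orderOf_coe, h1]
  have hza : z • a = a := (z0 : S).2
  have hnorm : ∀ g : G, g • a = a → g * z * g⁻¹ ∈ Subgroup.zpowers z := by
    intro g hg
    have h1 : (⟨g, hg⟩ : S) * (z0 : S) * (⟨g, hg⟩ : S)⁻¹ ∈ (P : Subgroup S) :=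
      hPn.conj_mem _ z0.2 _
    have h2 : (⟨_, h1⟩ : P) ∈ Subgroup.zpowers z0 := by rw [hztop]; trivial
    obtain ⟨k, hk⟩ := h2
    refine ⟨k, ?_⟩
    have h3 := congrArg (fun u : P => ((u : S) : G)) hk
    simpa using h3
  -- the orbit
  have hmove : ∃ b0 : α, z • b0 ≠ b0 := by
    by_contra hcon
    push Not at hcon
    apply hz1
    apply Subtype.ext
    ext x
    exact hcon x
  obtain ⟨b0, hb0⟩ := hmove
  have hcardZ : Nat.card (Subgroup.zpowers z) = p := by rw [Nat.card_zpowers, hord]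
  have hstab : MulAction.stabilizer (Subgroup.zpowers z) b0 = ⊥ := by
    have : Fact (Nat.card (Subgroup.zpowers z)).Prime := ⟨by rw [hcardZ]; exact hp⟩
    rcases Subgroup.eq_bot_or_eq_top_of_prime_card
      (MulAction.stabilizer (Subgroup.zpowers z) b0) with h | h
    · exact h
    · exfalso
      have : (⟨z, Subgroup.mem_zpowers z⟩ : Subgroup.zpowers z) ∈
          MulAction.stabilizer (Subgroup.zpowers z) b0 := by rw [h]; trivial
      exact hb0 this
  have horb : (MulAction.orbit (Subgroup.zpowers z) b0).ncard = p := by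
    rw [← MulAction.index_stabilizer, hstab, Subgroup.index_bot, hcardZ]
  have hsubset : MulAction.orbit (Subgroup.zpowers z) b0 ⊆ ({a}ᶜ : Set α) := by
    rintro _ ⟨⟨u, k, rfl⟩, rfl⟩ e
    have e' : (z ^ k) • b0 = a := e
    apply hb0
    have h1 : (z ^ k) • a = a := by
      have : z ^ k ∈ MulAction.stabilizer G a := Subgroup.zpow_mem _ hza k
      exact this
    have h2 : b0 = a := by
      have := e'.trans h1.symm
      exact smul_left_cancel _ this
    rw [h2]; exact hza
  have hcompl : ({a}ᶜ : Set α).ncard = p := by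
    rw [Set.ncard_compl, Set.ncard_singleton, Nat.card_eq_fintype_card, hα]
    simp
  have horbeq : MulAction.orbit (Subgroup.zpowers z) b0 = ({a}ᶜ : Set α) :=
    Set.eq_of_subset_of_ncard_le hsubset (by rw [horb, hcompl]) (Set.toFinite _)
  have hrep : ∀ c : α, c ≠ a → ∃ k : ℤ, z ^ k • b0 = c := by
    intro c hc
    have : c ∈ MulAction.orbit (Subgroup.zpowers z) b0 := by rw [horbeq]; exact hc
    obtain ⟨⟨u, k, rfl⟩, hu⟩ := this
    exact ⟨k, hu⟩
  refine ⟨z, hza, hord, hnorm, ?_⟩
  intro b c hb hc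
  obtain ⟨i, hi⟩ := hrep b hb
  obtain ⟨j, hj⟩ := hrep c hc
  have h1 : z ^ (j - i) ∈ Subgroup.zpowers z := ⟨j - i, rfl⟩
  rw [← mem_powers_iff_mem_zpowers] at h1
  obtain ⟨t, ht⟩ := h1
  refine ⟨t, ?_⟩
  have ht' : z ^ t = z ^ (j - i) := ht
  rw [ht', ← hi, ← hj, smul_smul, ← zpow_add]
  congr 2
  ring

theorem exists_conc {α : Type*} [Fintype α] [DecidableEq α] {p d : ℕ} [Fact p.Prime]
    (hα : Fintype.card α = p + 1) (G : Subgroup (Equiv.Perm α)) [MulAction.IsPretransitive G α]
    (hG : Nat.card G = (p + 1) * p * d) (hd : d < p) :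
    ∃ e : α ≃ OnePoint (ZMod p), Conc (ZMod p) (G.map e.permCongrHom.toMonoidHom) := by
  have hp : p.Prime := Fact.out
  have hne : Nonempty α := by
    rw [← Fintype.card_pos_iff, hα]; exact Nat.succ_pos p
  obtain ⟨a⟩ := hne
  obtain ⟨-, z, hza, hord, hnorm, htr⟩ := exists_z hα G hG hd a
  have hb : ∃ b : α, b ≠ a := by
    by_contra hcon
    push Not at hcon
    have : Fintype.card α ≤ 1 := Fintype.card_le_one_iff.mpr (fun x y => by rw [hcon x, hcon y])
    rw [hα] at this
    have := hp.pos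
    omega
  obtain ⟨b, hb⟩ := hb
  have hzpa : ∀ i : ℕ, z ^ i • a = a := by
    intro i
    have : z ^ i ∈ MulAction.stabilizer G a := Subgroup.pow_mem _ hza i
    exact this
  let ψ : OnePoint (ZMod p) → α := fun x => OnePoint.elim x a (fun i : ZMod p => z ^ i.val • b)
  have hψinf : ψ ∞ = a := rfl
  have hψc : ∀ i : ZMod p, ψ (i : OnePoint (ZMod p)) = z ^ i.val • b := fun i => rfl
  have hψn : ∀ n : ℕ, ψ (((n : ZMod p)) : OnePoint (ZMod p)) = z ^ n • b := by
    intro n
    rw [hψc, ZMod.val_natCast, ← hord, pow_mod_orderOf]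
  have hsurj : Function.Surjective ψ := by
    intro c
    by_cases hc : c = a
    · exact ⟨∞, by rw [hψinf, hc]⟩
    · obtain ⟨i, hi⟩ := htr b c hb hc
      exact ⟨((i : ZMod p) : OnePoint (ZMod p)), by rw [hψn, hi]⟩
  have hfin : Finite (OnePoint (ZMod p)) := inferInstanceAs (Finite (Option (ZMod p)))
  have hcard : Nat.card (OnePoint (ZMod p)) = Nat.card α := by
    rw [Nat.card_eq_fintype_card (α := α), hα]
    have : Nat.card (Option (ZMod p)) = Nat.card (ZMod p) + 1 := Finite.card_option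
    rw [Nat.card_zmod] at this
    exact this
  have hbij : Function.Bijective ψ :=
    (Nat.bijective_iff_surjective_and_card ψ).mpr ⟨hsurj, hcard⟩
  let e : α ≃ OnePoint (ZMod p) := (Equiv.ofBijective ψ hbij).symm
  have hes : ∀ x, e.symm x = ψ x := fun x => rfl
  have heψ : ∀ x, e (ψ x) = x := fun x => (Equiv.ofBijective ψ hbij).symm_apply_apply x
  have happ : ∀ (g : Equiv.Perm α) (x : OnePoint (ZMod p)),
      e.permCongrHom g x = e (g (ψ x)) := fun g x => rfl
  refine ⟨e, ?_, ?_, ?_⟩
  · intro c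
    refine ⟨e.permCongrHom ((z ^ c.val : G) : Equiv.Perm α), ⟨_, (z ^ c.val : G).2, rfl⟩, ?_, ?_⟩
    · rw [happ, hψinf]
      have : ((z ^ c.val : G) : Equiv.Perm α) a = a := hzpa c.val
      rw [this, ← hψinf, heψ]
    · intro x
      rw [happ, hψc]
      have : ((z ^ c.val : G) : Equiv.Perm α) (z ^ x.val • b) = z ^ (c.val + x.val) • b := by
        rw [pow_add, mul_smul]; rfl
      rw [this, ← hψn, heψ]
      congr 1
      push_cast
      rw [ZMod.natCast_zmod_val, ZMod.natCast_zmod_val]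
      ring
  · rintro _ ⟨g, hg, rfl⟩ hinf
    have hinf' : e (g (ψ ∞)) = ∞ := hinf
    have hga : g a = a := by
      rw [hψinf] at hinf'
      have h1 : e (g a) = e a := by rw [hinf', ← hψinf, heψ]
      exact e.injective h1
    have hga' : (⟨g, hg⟩ : G) • a = a := hga
    have h1 := hnorm ⟨g, hg⟩ hga'
    rw [← mem_powers_iff_mem_zpowers] at h1
    obtain ⟨k, hk⟩ := h1
    have hk' : z ^ k = (⟨g, hg⟩ : G) * z * (⟨g, hg⟩ : G)⁻¹ := hk
    have hgb : g b ≠ a := by
      intro h
      apply hb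
      apply g.injective
      rw [h, hga]
    obtain ⟨c, hc⟩ := htr b (g b) hb hgb
    have hkey : ∀ i : ℕ, g (z ^ i • b) = z ^ (k * i + c) • b := by
      intro i
      have h2 : (⟨g, hg⟩ : G) * z ^ i = (z ^ k) ^ i * (⟨g, hg⟩ : G) := by
        rw [hk', conj_pow]; group
      have h3 : g (z ^ i • b) = ((⟨g, hg⟩ : G) * z ^ i) • b := by
        rw [mul_smul]; rfl
      rw [h3, h2, mul_smul]
      have h4 : (⟨g, hg⟩ : G) • b = z ^ c • b := hc.symm
      rw [h4, smul_smul, ← pow_mul, ← pow_add]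
    refine ⟨(k : ZMod p), (c : ZMod p), ?_, ?_, ?_⟩
    · intro h0
      rw [ZMod.natCast_eq_zero_iff] at h0
      have h2 : z ^ k = 1 := by
        rw [← hord] at h0
        exact orderOf_dvd_iff_pow_eq_one.mp h0
      rw [h2] at hk'
      have h3 : z = 1 := by
        have : z = (⟨g, hg⟩ : G)⁻¹ * ((⟨g, hg⟩ : G) * z * (⟨g, hg⟩ : G)⁻¹) * (⟨g, hg⟩ : G) := by group
        rw [this, ← hk']; group
      rw [h3, orderOf_one] at hord
      exact hp.one_lt.ne hord
    · exact hinf
    · intro x
      show e (g (ψ x)) = _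
      rw [hψc, hkey, ← hψn, heψ]
      congr 1
      push_cast
      rw [ZMod.natCast_zmod_val]
  · obtain ⟨g, hg⟩ := MulAction.exists_smul_eq G a b
    refine ⟨e.permCongrHom (g : Equiv.Perm α), ⟨_, g.2, rfl⟩, ?_⟩
    rw [happ, hψinf]
    have : (g : Equiv.Perm α) a = b := hg
    rw [this]
    intro h
    apply hb
    apply e.injective
    rw [h, ← hψinf, heψ]

end Cfsg.Agent.Lib.Helper24.Z32
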