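import Cfsg.Agent.Lib.Helper38.Z32Defs

set_option autoImplicit false
set_option linter.unusedSectionVars false
set_option linter.unusedVariables false

/-! S0732 ladder, rung R2. -/

namespace Cfsg.Agent.Lib.Helper38.Z32

open OnePoint

variable {F : Type*} [Field F] {Γ : Subgroup (Equiv.Perm (OnePoint F))}

theorem IsAff.unique {γ : Equiv.Perm (OnePoint F)} {k c k' c' : F} (h : IsAff γ k c)
    (h' : IsAff γ k' c') : k = k' ∧ c = c' := by
  have h0 := (h.2 0).symm.trans (h'.2 0)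
  have h1 := (h.2 1).symm.trans (h'.2 1)
  rw [OnePoint.coe_eq_coe] at h0 h1
  simp only [mul_zero, zero_add, mul_one] at h0 h1
  refine ⟨?_, h0⟩
  rw [h0] at h1
  exact add_right_cancel h1

theorem IsAff.ext {γ δ : Equiv.Perm (OnePoint F)} {k c : F} (h : IsAff γ k c) (h' : IsAff δ k c) :
    γ = δ := by
  ext x
  induction x using OnePoint.rec with
  | infty => rw [h.1, h'.1]
  | coe x => rw [h.2, h'.2]

theorem IsAff.mul {γ δ : Equiv.Perm (OnePoint F)} {k c k' c' : F} (h : IsAff γ k c)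
    (h' : IsAff δ k' c') : IsAff (γ * δ) (k * k') (k * c' + c) := by
  refine ⟨?_, fun x => ?_⟩
  · rw [Equiv.Perm.mul_apply, h'.1, h.1]
  · rw [Equiv.Perm.mul_apply, h'.2, h.2]
    congr 1
    ring

theorem isAff_one : IsAff (1 : Equiv.Perm (OnePoint F)) 1 0 := ⟨rfl, fun x => by simp⟩

theorem IsAff.eq_one {γ : Equiv.Perm (OnePoint F)} (h : IsAff γ 1 0) : γ = 1 := h.ext isAff_one

theorem Conc.exists_map_infty (h : Conc F Γ) (a : OnePoint F) : ∃ δ ∈ Γ, δ ∞ = a := by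
  induction a using OnePoint.rec with
  | infty => exact ⟨1, Γ.one_mem, rfl⟩
  | coe a =>
    obtain ⟨γ, hγ, hne⟩ := h.moves
    obtain ⟨y, hy⟩ := OnePoint.ne_infty_iff_exists.mp hne
    obtain ⟨τ, hτ, hτa⟩ := h.transl (a - y)
    refine ⟨τ * γ, Γ.mul_mem hτ hγ, ?_⟩
    rw [Equiv.Perm.mul_apply, ← hy, hτa.2]
    congr 1
    ring

theorem Conc.exists_map_pair (h : Conc F Γ) (a b : OnePoint F) (hab : a ≠ b) :
    ∃ δ ∈ Γ, δ ∞ = a ∧ δ ((0 : F) : OnePoint F) = b := by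
  obtain ⟨δ, hδ, hδa⟩ := h.exists_map_infty a
  have hne : δ⁻¹ b ≠ ∞ := by
    intro e
    apply hab
    rw [← hδa, ← e]
    simp
  obtain ⟨y, hy⟩ := OnePoint.ne_infty_iff_exists.mp hne
  obtain ⟨τ, hτ, hτa⟩ := h.transl y
  refine ⟨δ * τ, Γ.mul_mem hδ hτ, ?_, ?_⟩
  · rw [Equiv.Perm.mul_apply, hτa.1, hδa]
  · rw [Equiv.Perm.mul_apply, hτa.2, mul_zero, zero_add, hy]
    simp

theorem Conc.eq_one (h : Conc F Γ) (γ : Γ) (a b c : OnePoint F) (hab : a ≠ b) (hbc : b ≠ c)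
    (hac : a ≠ c) (ha : γ • a = a) (hb : γ • b = b) (hc : γ • c = c) : γ = 1 := by
  have ha' : (γ : Equiv.Perm (OnePoint F)) a = a := ha
  have hb' : (γ : Equiv.Perm (OnePoint F)) b = b := hb
  have hc' : (γ : Equiv.Perm (OnePoint F)) c = c := hc
  obtain ⟨δ, hδ, hδa⟩ := h.exists_map_infty a
  set γ' : Equiv.Perm (OnePoint F) := δ⁻¹ * γ * δ with hγ'
  have hγ'Γ : γ' ∈ Γ := Γ.mul_mem (Γ.mul_mem (Γ.inv_mem hδ) γ.2) hδ
  have hfix : ∀ z, (γ : Equiv.Perm (OnePoint F)) z = z → γ' (δ⁻¹ z) = δ⁻¹ z := by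
    intro z hz
    rw [hγ', Equiv.Perm.mul_apply, Equiv.Perm.mul_apply]
    simp [hz]
  have hinf : δ⁻¹ a = ∞ := by rw [← hδa]; simp
  have h1 : γ' ∞ = ∞ := by rw [← hinf]; exact hfix a ha'
  obtain ⟨k, c0, hk, haff⟩ := h.aff γ' hγ'Γ h1
  have hbne : δ⁻¹ b ≠ ∞ := by
    rw [← hinf]; exact fun e => hab (δ⁻¹.injective e).symm
  have hcne : δ⁻¹ c ≠ ∞ := by
    rw [← hinf]; exact fun e => hac (δ⁻¹.injective e).symm
  obtain ⟨y, hy⟩ := OnePoint.ne_infty_iff_exists.mp hbne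
  obtain ⟨z, hz⟩ := OnePoint.ne_infty_iff_exists.mp hcne
  have hyz : y ≠ z := by
    intro e
    apply hbc
    apply δ⁻¹.injective
    rw [← hy, ← hz, e]
  have e1 := hfix b hb'
  have e2 := hfix c hc'
  rw [← hy, haff.2, OnePoint.coe_eq_coe] at e1
  rw [← hz, haff.2, OnePoint.coe_eq_coe] at e2
  have hk1 : k = 1 := by
    have : (k - 1) * (y - z) = 0 := by linear_combination e1 - e2
    rcases mul_eq_zero.mp this with h | h
    · exact sub_eq_zero.mp h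
    · exact absurd (sub_eq_zero.mp h) hyz
  have hc0 : c0 = 0 := by
    rw [hk1] at e1
    linear_combination e1
  rw [hk1, hc0] at haff
  have h2 : γ' = 1 := haff.eq_one
  apply Subtype.ext
  show (γ : Equiv.Perm (OnePoint F)) = 1
  have : (γ : Equiv.Perm (OnePoint F)) = δ * γ' * δ⁻¹ := by rw [hγ']; group
  rw [this, h2]; group

theorem Conc.two_trans (h : Conc F Γ) : MulAction.IsMultiplyPretransitive Γ (OnePoint F) 2 := by
  rw [MulAction.is_two_pretransitive_iff]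
  intro a b c d hab hcd
  obtain ⟨δ, hδ, h1, h2⟩ := h.exists_map_pair a b hab
  obtain ⟨ε, hε, h3, h4⟩ := h.exists_map_pair c d hcd
  refine ⟨⟨ε * δ⁻¹, Γ.mul_mem hε (Γ.inv_mem hδ)⟩, ?_, ?_⟩
  · show (ε * δ⁻¹) a = c
    rw [Equiv.Perm.mul_apply, ← h1]
    simp [h3]
  · show (ε * δ⁻¹) b = d
    rw [Equiv.Perm.mul_apply, ← h2]
    simp [h4]

theorem Conc.TT_le (h : Conc F Γ) : TT Γ ≤ MulAction.stabilizer Γ (∞ : OnePoint F) := by
  rintro γ ⟨b, hb⟩
  exact hb.1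

theorem Conc.TT_normal (h : Conc F Γ) :
    ((TT Γ).subgroupOf (MulAction.stabilizer Γ (∞ : OnePoint F))).Normal := by
  constructor
  rintro τ ⟨b, hb0⟩ σ
  have hb : IsAff ((τ : Γ) : Equiv.Perm (OnePoint F)) 1 b := hb0
  have hσ : ((σ : Γ) : Equiv.Perm (OnePoint F)) ∞ = ∞ := σ.2
  obtain ⟨k, c, hk, haff⟩ := h.aff _ (σ : Γ).2 hσ
  refine ⟨k * b, ?_, ?_⟩
  · show ((σ : Γ) : Equiv.Perm (OnePoint F)) (((τ : Γ) : Equiv.Perm (OnePoint F))
      (((σ : Γ) : Equiv.Perm (OnePoint F))⁻¹ ∞)) = ∞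
    have : ((σ : Γ) : Equiv.Perm (OnePoint F))⁻¹ ∞ = ∞ := by
      rw [Equiv.Perm.inv_eq_iff_eq, hσ]
    rw [this, hb.1, hσ]
  · intro x
    show ((σ : Γ) : Equiv.Perm (OnePoint F)) (((τ : Γ) : Equiv.Perm (OnePoint F))
      (((σ : Γ) : Equiv.Perm (OnePoint F))⁻¹ x)) = _
    have : ((σ : Γ) : Equiv.Perm (OnePoint F))⁻¹ x = (((x - c) / k : F) : OnePoint F) := by
      rw [Equiv.Perm.inv_eq_iff_eq, haff.2]
      congr 1
      field_simp
      ring
    rw [this, hb.2, haff.2]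
    congr 1
    field_simp
    ring

theorem Conc.TT_comm (h : Conc F Γ) : IsMulCommutative (TT Γ) := by
  constructor
  constructor
  rintro ⟨γ, b, hb⟩ ⟨δ, c, hc⟩
  apply Subtype.ext
  apply Subtype.ext
  show (γ : Equiv.Perm (OnePoint F)) * δ = δ * γ
  have h1 := hb.mul hc
  have h2 := hc.mul hb
  have e : (1 : F) * c + b = 1 * b + c := by ring
  rw [e] at h1
  exact h1.ext h2

theorem Conc.TT_reg (h : Conc F Γ) (y z : OnePoint F) (hy : y ≠ ∞) (hz : z ≠ ∞) :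
    ∃! u : TT Γ, (u : Γ) • y = z := by
  obtain ⟨y, rfl⟩ := OnePoint.ne_infty_iff_exists.mp hy
  obtain ⟨z, rfl⟩ := OnePoint.ne_infty_iff_exists.mp hz
  obtain ⟨τ, hτ, hτa⟩ := h.transl (z - y)
  refine ⟨⟨⟨τ, hτ⟩, z - y, hτa⟩, ?_, ?_⟩
  · show τ (y : OnePoint F) = z
    rw [hτa.2]
    congr 1
    ring
  · rintro ⟨⟨u, hu⟩, b, hb⟩ hu2
    have hu3 : u (y : OnePoint F) = z := hu2
    have hb' : IsAff u 1 b := hb
    rw [hb'.2, OnePoint.coe_eq_coe] at hu3
    have : b = z - y := by linear_combination hu3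
    apply Subtype.ext
    apply Subtype.ext
    show u = τ
    rw [this] at hb'
    exact hb'.ext hτa

theorem Conc.TT_card (h : Conc F Γ) : Nat.card (TT Γ) = Nat.card F := by
  have hex : ∀ u : TT Γ, ∃ b : F, IsAff ((u : Γ) : Equiv.Perm (OnePoint F)) 1 b := fun u => u.2
  choose f hf using hex
  apply Nat.card_congr (Equiv.ofBijective f ⟨?_, ?_⟩)
  · intro u v huv
    apply Subtype.ext
    apply Subtype.ext
    have h1 := hf u
    rw [huv] at h1
    exact h1.ext (hf v)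
  · intro b
    obtain ⟨τ, hτ, hτa⟩ := h.transl b
    refine ⟨⟨⟨τ, hτ⟩, b, hτa⟩, ?_⟩
    exact ((hf ⟨⟨τ, hτ⟩, b, hτa⟩).unique hτa).2

theorem Conc.TT_fix (h : Conc F Γ) (u : Γ) (hu : u ∈ TT Γ) (hu1 : u ≠ 1) (c : OnePoint F)
    (hc : u • c = c) : c = ∞ := by
  by_contra hne
  obtain ⟨x, rfl⟩ := OnePoint.ne_infty_iff_exists.mp hne
  obtain ⟨b, hb⟩ := hu
  have hc' : (u : Equiv.Perm (OnePoint F)) (x : OnePoint F) = x := hc
  rw [hb.2, OnePoint.coe_eq_coe] at hc'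
  have hb0 : b = 0 := by linear_combination hc'
  rw [hb0] at hb
  exact hu1 (Subtype.ext hb.eq_one)

/-- the multiplier homomorphism on the stabiliser of `∞` and `0` -/
theorem Conc.exists_hom (h : Conc F Γ) :
    ∃ φ : ↥(MulAction.stabilizer Γ (∞ : OnePoint F) ⊓
        MulAction.stabilizer Γ ((0 : F) : OnePoint F) : Subgroup Γ) →* Fˣ,
      Function.Injective φ ∧ ∀ γ, IsAff ((γ.1 : Γ) : Equiv.Perm (OnePoint F)) ((φ γ : Fˣ) : F) 0 := by
  have hex : ∀ γ : ↥(MulAction.stabilizer Γ (∞ : OnePoint F) ⊓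
      MulAction.stabilizer Γ ((0 : F) : OnePoint F) : Subgroup Γ),
      ∃ k : Fˣ, IsAff ((γ : Γ) : Equiv.Perm (OnePoint F)) (k : F) 0 := by
    intro γ
    have h1 : ((γ : Γ) : Equiv.Perm (OnePoint F)) ∞ = ∞ := γ.2.1
    have h2 : ((γ : Γ) : Equiv.Perm (OnePoint F)) ((0 : F) : OnePoint F) = ((0 : F) : OnePoint F) :=
      γ.2.2
    obtain ⟨k, c, hk, haff⟩ := h.aff _ (γ : Γ).2 h1
    rw [haff.2, OnePoint.coe_eq_coe, mul_zero, zero_add] at h2
    rw [h2] at haff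
    exact ⟨Units.mk0 k hk, haff⟩
  choose κ hκ using hex
  refine ⟨MonoidHom.mk' κ ?_, ?_, hκ⟩
  · intro a b
    apply Units.ext
    have h1 := (hκ a).mul (hκ b)
    rw [mul_zero, zero_add] at h1
    exact ((hκ (a * b)).unique h1).1
  · intro a b hab
    have hab' : κ a = κ b := hab
    apply Subtype.ext
    apply Subtype.ext
    have h1 := hκ a
    rw [hab'] at h1
    exact h1.ext (hκ b)

theorem Conc.card_stab [Finite F] (h : Conc F Γ) (d : ℕ)
    (hcard : Nat.card Γ = (Nat.card F + 1) * Nat.card F * d) :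
    Nat.card ↥(MulAction.stabilizer Γ (∞ : OnePoint F) ⊓
      MulAction.stabilizer Γ ((0 : F) : OnePoint F) : Subgroup Γ) = d ∧ d ∣ Nat.card F - 1 := by
  have hfin : Finite (OnePoint F) := inferInstanceAs (Finite (Option F))
  have hq : 0 < Nat.card F := Nat.card_pos
  have htr : MulAction.IsPretransitive Γ (OnePoint F) := by
    have := h.two_trans
    exact MulAction.isPretransitive_of_is_two_pretransitive
  have h1 : (MulAction.stabilizer Γ (∞ : OnePoint F)).index = Nat.card F + 1 := by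
    rw [MulAction.index_stabilizer_of_transitive]
    exact Finite.card_option
  set H := MulAction.stabilizer Γ (∞ : OnePoint F) with hH
  have h2 : (MulAction.stabilizer H ((0 : F) : OnePoint F)).index = Nat.card F := by
    rw [MulAction.index_stabilizer]
    have : MulAction.orbit H ((0 : F) : OnePoint F) = Set.range ((↑) : F → OnePoint F) := by
      ext z
      constructor
      · rintro ⟨σ, rfl⟩
        have hσ : ((σ : Γ) : Equiv.Perm (OnePoint F)) ∞ = ∞ := σ.2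
        obtain ⟨k, c, hk, haff⟩ := h.aff _ (σ : Γ).2 hσ
        exact ⟨k * 0 + c, (haff.2 0).symm⟩
      · rintro ⟨b, rfl⟩
        obtain ⟨τ, hτ, hτa⟩ := h.transl b
        refine ⟨⟨⟨τ, hτ⟩, hτa.1⟩, ?_⟩
        show τ ((0 : F) : OnePoint F) = b
        rw [hτa.2]; simp
    rw [this, Set.ncard_range_of_injective OnePoint.coe_injective]
  have h3 : Nat.card (MulAction.stabilizer H ((0 : F) : OnePoint F)) =
      Nat.card ↥(H ⊓ MulAction.stabilizer Γ ((0 : F) : OnePoint F) : Subgroup Γ) := by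
    refine Nat.card_congr ⟨fun σ => ⟨σ.1.1, σ.1.2, σ.2⟩, fun σ => ⟨⟨σ.1, σ.2.1⟩, σ.2.2⟩,
      fun σ => rfl, fun σ => rfl⟩
  have h4 := H.card_mul_index
  have h5 := (MulAction.stabilizer H ((0 : F) : OnePoint F)).card_mul_index
  rw [h1] at h4
  rw [h2, h3] at h5
  have h6 : Nat.card ↥(H ⊓ MulAction.stabilizer Γ ((0 : F) : OnePoint F) : Subgroup Γ) = d := by
    rw [← h5, hcard] at h4
    have h7 : Nat.card ↥(H ⊓ MulAction.stabilizer Γ ((0 : F) : OnePoint F) : Subgroup Γ) *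
        ((Nat.card F + 1) * Nat.card F) = d * ((Nat.card F + 1) * Nat.card F) := by
      calc _ = Nat.card ↥(H ⊓ MulAction.stabilizer Γ ((0 : F) : OnePoint F) : Subgroup Γ) *
            Nat.card F * (Nat.card F + 1) := by ring
        _ = (Nat.card F + 1) * Nat.card F * d := h4
        _ = _ := by ring
    exact Nat.eq_of_mul_eq_mul_right (by positivity) h7
  refine ⟨h6, ?_⟩
  obtain ⟨φ, hφ, -⟩ := h.exists_hom
  have := Subgroup.card_dvd_of_injective φ hφ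
  rwa [h6, Nat.card_units] at this

theorem Conc.all_mul [Finite F] (h : Conc F Γ)
    (hcard : Nat.card Γ = (Nat.card F + 1) * Nat.card F * (Nat.card F - 1)) (k : F) (hk : k ≠ 0) :
    ∃ γ ∈ Γ, IsAff γ k 0 := by
  obtain ⟨h1, -⟩ := h.card_stab _ hcard
  obtain ⟨φ, hφ, hφa⟩ := h.exists_hom
  have hbij : Function.Bijective φ := by
    rw [Nat.bijective_iff_injective_and_card]
    exact ⟨hφ, by rw [h1, Nat.card_units]⟩
  obtain ⟨γ, hγ⟩ := hbij.2 (Units.mk0 k hk)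
  refine ⟨(γ : Γ), (γ : Γ).2, ?_⟩
  have := hφa γ
  rwa [hγ] at this

end Cfsg.Agent.Lib.Helper38.Z32
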