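import Cfsg.Agent.Lib.Helper24.Z32R1

set_option autoImplicit false
set_option linter.unusedSectionVars false
set_option linter.unusedVariables false

/-! S0732 ladder, rung R6a. -/

namespace Cfsg.Agent.Lib.Helper24.Z32

theorem regular_normal_facts {α : Type*} [Fintype α] [DecidableEq α] {p d : ℕ} (hp : p.Prime)
    (hp2 : p ≠ 2) (hα : Fintype.card α = p + 1) (G : Subgroup (Equiv.Perm α))
    [MulAction.IsPretransitive G α] (hG : Nat.card G = (p + 1) * p * d) (hd : d < p)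
    (N : Subgroup G) (hN : N.Normal) (htr : MulAction.IsPretransitive N α)
    (hreg : ∀ a : α, MulAction.stabilizer N a = ⊥) (a : α) :
    (∀ n ∈ N, n * n = 1) ∧ (∃ q : ℕ, q.Prime ∧ p + 1 = 2 ^ q) ∧
    ∃ z : G, z • a = a ∧ (∀ g : G, g • a = a → g * z * g⁻¹ ∈ Subgroup.zpowers z) ∧
      (∀ m ∈ N, m ≠ 1 → ∀ n ∈ N, n ≠ 1 → ∃ i : ℕ, z ^ i * m * (z ^ i)⁻¹ = n) ∧
      Nat.card ↥(MulAction.stabilizer G a) = p * d := by
  have : Fact p.Prime := ⟨hp⟩
  obtain ⟨hcardS, z, hza, hord, hnorm, htrz⟩ := exists_z hα G hG hd a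
  have hfree : ∀ n ∈ N, n • a = a → n = 1 := by
    intro n hn hna
    have : (⟨n, hn⟩ : N) ∈ MulAction.stabilizer N a := hna
    rw [hreg, Subgroup.mem_bot] at this
    exact congrArg Subtype.val this
  have hzpa : ∀ i : ℕ, z ^ i • a = a := by
    intro i
    have : z ^ i ∈ MulAction.stabilizer G a := Subgroup.pow_mem _ hza i
    exact this
  have hconj : ∀ m ∈ N, m ≠ 1 → ∀ n ∈ N, n ≠ 1 → ∃ i : ℕ, z ^ i * m * (z ^ i)⁻¹ = n := by
    intro m hm hm1 n hn hn1
    have hma : m • a ≠ a := fun h => hm1 (hfree m hm h)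
    have hna : n • a ≠ a := fun h => hn1 (hfree n hn h)
    obtain ⟨i, hi⟩ := htrz _ _ hma hna
    refine ⟨i, ?_⟩
    have h1 : (z ^ i * m * (z ^ i)⁻¹) • a = n • a := by
      have h2 : (z ^ i)⁻¹ • a = a := by
        rw [inv_smul_eq_iff, hzpa]
      rw [mul_smul, mul_smul, h2, hi]
    have h3 : n⁻¹ * (z ^ i * m * (z ^ i)⁻¹) = 1 := by
      apply hfree _ (N.mul_mem (N.inv_mem hn) (hN.conj_mem m hm _))
      rw [mul_smul, h1, inv_smul_smul]
    exact (inv_mul_eq_one.mp h3).symm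
  have hcardN : Nat.card N = p + 1 := by
    have h1 := MulAction.index_stabilizer_of_transitive (G := N) (x := a)
    rw [hreg, Subgroup.index_bot, Nat.card_eq_fintype_card (α := α), hα] at h1
    exact h1
  have heven : 2 ∣ Nat.card N := by
    rw [hcardN]
    have := hp.eq_two_or_odd'.resolve_left hp2
    obtain ⟨k, hk⟩ := this
    exact ⟨k + 1, by omega⟩
  obtain ⟨t, ht⟩ := exists_prime_orderOf_dvd_card' (G := N) 2 heven
  have ht1 : (t : G) ≠ 1 := by
    intro e
    have : t = 1 := Subtype.ext e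
    rw [this, orderOf_one] at ht
    omega
  have htt : (t : G) * (t : G) = 1 := by
    have h1 : t ^ 2 = 1 := by rw [← ht]; exact pow_orderOf_eq_one t
    have h2 := congrArg Subtype.val h1
    rw [pow_two] at h2
    exact h2
  have hinv : ∀ n ∈ N, n * n = 1 := by
    intro n hn
    by_cases hn1 : n = 1
    · rw [hn1, one_mul]
    · obtain ⟨i, hi⟩ := hconj t t.2 ht1 n hn hn1
      rw [← hi]
      calc z ^ i * t * (z ^ i)⁻¹ * (z ^ i * t * (z ^ i)⁻¹)
          = z ^ i * ((t : G) * (t : G)) * (z ^ i)⁻¹ := by group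
        _ = 1 := by rw [htt]; group
  refine ⟨hinv, ?_, z, hza, hnorm, hconj, hcardS⟩
  have hpg : IsPGroup 2 N := by
    intro n
    refine ⟨1, ?_⟩
    apply Subtype.ext
    rw [pow_one, pow_two]
    exact hinv n n.2
  obtain ⟨q, hq⟩ := (IsPGroup.iff_card (p := 2)).mp hpg
  rw [hcardN] at hq
  refine ⟨q, ?_, hq⟩
  have hq1 : q ≠ 1 := by
    rintro rfl
    have := hp.one_lt
    omega
  have hP : (2 ^ q - 1).Prime := by
    rw [← hq]; simpa using hp
  exact (Nat.prime_of_pow_sub_one_prime hq1 hP).2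

end Cfsg.Agent.Lib.Helper24.Z32
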